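import Cfsg.Agent.Lib.Helper14.MinIdx.Defs

set_option autoImplicit false
set_option linter.style.haveILetI false
set_option linter.unusedVariables false

/-! S2140 farm (helper14), piece A4. -/

namespace Cfsg.Agent.Lib.Helper58.MinIdx

open Matrix Cfsg.Agent.Lib.Helper57.RootSL Cfsg.Agent.Lib.Helper14.MinIdx

theorem A4_aux {A : Type*} [AddCommGroup A] [Finite A] {p : ℕ} [Fact p.Prime]
    [Module (ZMod p) A] (B : AddSubgroup A) {x : A} (hx : x ∉ B) :
    ∃ M : AddSubgroup A, B ≤ M ∧ x ∉ M ∧ M.index = p := by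
  have hx' : x ∉ AddSubgroup.toZModSubmodule p B := hx
  obtain ⟨f, hfx, hfB⟩ := Submodule.exists_dual_map_eq_bot_of_notMem hx' inferInstance
  refine ⟨f.toAddMonoidHom.ker, ?_, ?_, ?_⟩
  · intro b hb
    rw [AddMonoidHom.mem_ker]
    have : f b ∈ (AddSubgroup.toZModSubmodule p B).map f := ⟨b, hb, rfl⟩
    rw [hfB] at this
    exact this
  · intro h
    exact hfx h
  · rw [AddSubgroup.index_ker]
    have hs : f.toAddMonoidHom.range = ⊤ := by
      rw [eq_top_iff]
      intro c _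
      refine ⟨(c / f x) • x, ?_⟩
      show f ((c / f x) • x) = c
      rw [map_smul, smul_eq_mul, div_mul_cancel₀ _ hfx]
    rw [hs, Nat.card_congr (AddSubgroup.topEquiv (G := ZMod p)).toEquiv, Nat.card_zmod]

theorem A4 {A : Type*} [AddCommGroup A] [Finite A] {p : ℕ} (hp : p.Prime) (hA : ∀ a : A, p • a = 0) (B : AddSubgroup A) {x : A} (hx : x ∉ B) :
    ∃ M : AddSubgroup A, B ≤ M ∧ x ∉ M ∧ M.index = p := by
  haveI : Fact p.Prime := ⟨hp⟩
  letI : Module (ZMod p) A := AddCommGroup.zmodModule hA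
  exact A4_aux B hx

end Cfsg.Agent.Lib.Helper58.MinIdx
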