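import Cfsg.Agent.Lib.Helper14.MinIdx.Defs

set_option autoImplicit false
set_option linter.style.haveILetI false
set_option linter.unusedVariables false

/-! S2140 farm (helper14), piece C1. -/

namespace Cfsg.Agent.Lib.Helper58.MinIdx

open Matrix Cfsg.Agent.Lib.Helper57.RootSL Cfsg.Agent.Lib.Helper14.MinIdx

/-- the largest `F`-submodule inside an additive subgroup. -/
def coreSub {F : Type*} [Field F] {X : Type*} [AddCommGroup X] [Module F X] (M : AddSubgroup X) :
    Submodule F X where
  carrier := {x | ∀ c : F, c • x ∈ M}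
  add_mem' := by
    intro a b ha hb c
    rw [smul_add]
    exact M.add_mem (ha c) (hb c)
  zero_mem' := by
    intro c
    rw [smul_zero]
    exact M.zero_mem
  smul_mem' := by
    intro c x hx d
    rw [smul_smul]
    exact hx _

theorem C1_aux {F : Type*} [Field F] [Fintype F] {p : ℕ} [Fact p.Prime] [Algebra (ZMod p) F]
    {X : Type*} [AddCommGroup X] [Module F X] [Finite X] (M : AddSubgroup X) (hM : M.index = p) :
    (coreSub (F := F) M).toAddSubgroup.index ≤ Fintype.card F := by
  classical
  have hp : p.Prime := Fact.out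
  let b := Module.finBasis (ZMod p) F
  let D0 : AddSubgroup X := ⨅ i, M.comap (DistribSMul.toAddMonoidHom X (b i))
  have h1 : D0 ≤ (coreSub (F := F) M).toAddSubgroup := by
    intro x hx c
    have hx' : ∀ i, b i • x ∈ M := by
      intro i
      have := (AddSubgroup.mem_iInf.1 hx) i
      exact this
    rw [← b.sum_repr c, Finset.sum_smul]
    apply M.sum_mem
    intro i _
    have e : (b.repr c i) • b i = ((b.repr c i).val : ℕ) • b i := by
      rw [← Nat.cast_smul_eq_nsmul (ZMod p), ZMod.natCast_zmod_val]
    rw [e, smul_assoc]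
    exact M.nsmul_mem (hx' i) _
  have h2 : D0.index ≤ ∏ i : Fin (Module.finrank (ZMod p) F),
      (M.comap (DistribSMul.toAddMonoidHom X (b i))).index := AddSubgroup.index_iInf_le _
  have h3 : ∀ i, (M.comap (DistribSMul.toAddMonoidHom X (b i))).index ≤ p := by
    intro i
    rw [AddSubgroup.index_comap]
    apply Nat.le_of_dvd hp.pos
    have := AddSubgroup.relIndex_dvd_index_of_normal M
      (DistribSMul.toAddMonoidHom X (b i)).range
    rwa [hM] at this
  have h4 : ∏ i : Fin (Module.finrank (ZMod p) F),
      (M.comap (DistribSMul.toAddMonoidHom X (b i))).index ≤ Fintype.card F := by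
    calc _ ≤ ∏ i : Fin (Module.finrank (ZMod p) F), p := Finset.prod_le_prod' (fun i _ => h3 i)
      _ = p ^ Module.finrank (ZMod p) F := by simp
      _ = Fintype.card F := by
        rw [Module.card_eq_pow_finrank (K := ZMod p) (V := F), ZMod.card]
  have h5 : (coreSub (F := F) M).toAddSubgroup.index ≤ D0.index :=
    Nat.le_of_dvd (Nat.pos_of_ne_zero AddSubgroup.index_ne_zero_of_finite)
      (AddSubgroup.index_dvd_of_le h1)
  exact h5.trans (h2.trans h4)

theorem C1 {F : Type*} [Field F] [Fintype F] {p : ℕ} [Fact p.Prime] [CharP F p] {X : Type*} [AddCommGroup X] [Module F X] [Finite X] (M : AddSubgroup X) (hM : M.index = p) :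
    ∃ D : Submodule F X, (∀ x ∈ D, x ∈ M) ∧ Nat.card X ≤ Fintype.card F * Nat.card D := by
  letI : Algebra (ZMod p) F := ZMod.algebra F p
  refine ⟨coreSub M, ?_, ?_⟩
  · intro x hx
    have := hx 1
    rwa [one_smul] at this
  · have h1 := (coreSub (F := F) M).toAddSubgroup.index_mul_card
    have h2 := C1_aux (F := F) M hM
    calc Nat.card X = (coreSub (F := F) M).toAddSubgroup.index *
          Nat.card (coreSub (F := F) M).toAddSubgroup := h1.symm
      _ ≤ Fintype.card F * Nat.card (coreSub (F := F) M).toAddSubgroup :=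
          Nat.mul_le_mul_right _ h2
      _ = Fintype.card F * Nat.card (coreSub (F := F) M) := rfl

end Cfsg.Agent.Lib.Helper58.MinIdx
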