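import Mathlib

set_option autoImplicit false

namespace Cfsg.Agent.Lib.Helper58.HH

open Module

theorem arith_aux (s m d' c' : ℕ) (h : d' ^ 2 ≤ s * c') :
    (m + d') ^ 2 ≤ (s + 1) * (m * m + c') := by
  rcases Nat.eq_zero_or_pos s with rfl | hs
  · have : d' = 0 := by
      rw [zero_mul] at h
      exact pow_eq_zero_iff (two_ne_zero) |>.1 (Nat.le_zero.1 h)
    subst this
    nlinarith
  · have key : 2 * m * d' ≤ s * (m * m) + c' := by
      apply Nat.le_of_mul_le_mul_left _ hs
      zify at h ⊢
      nlinarith [sq_nonneg ((s : ℤ) * m - d')]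
    nlinarith

theorem mem_cen {K : Type*} [Field K] {V : Type*} [AddCommGroup V] [Module K V]
    (ν T : Module.End K V) :
    T ∈ LinearMap.ker (LinearMap.mulLeft K ν - LinearMap.mulRight K ν) ↔ ∀ v, ν (T v) = T (ν v) := by
  rw [LinearMap.mem_ker, LinearMap.sub_apply, LinearMap.mulLeft_apply, LinearMap.mulRight_apply,
    sub_eq_zero]
  constructor
  · intro h v
    exact LinearMap.congr_fun h v
  · intro h
    ext v
    exact h v

/-- P1 -/
theorem sq_finrank_le_mul_finrank_cen {K : Type*} [Field K] {V : Type*} [AddCommGroup V] [Module K V]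
    [FiniteDimensional K V] (s : ℕ) (ν : Module.End K V) (h : ν ^ s = 0) :
    (finrank K V) ^ 2 ≤ s * finrank K (LinearMap.ker (LinearMap.mulLeft K ν - LinearMap.mulRight K ν)) := by
  induction s generalizing V with
  | zero =>
    rw [pow_zero] at h
    have hs : Subsingleton V := ⟨fun a b => by
      have ha : (1 : Module.End K V) a = 0 := by rw [h]; rfl
      have hb : (1 : Module.End K V) b = 0 := by rw [h]; rfl
      simp only [Module.End.one_apply] at ha hb
      rw [ha, hb]⟩
    rw [finrank_zero_of_subsingleton]
    simp
  | succ s ih =>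
    set R := LinearMap.range ν with hR
    have hmem : ∀ x ∈ R, ν x ∈ R := fun x _ => ⟨x, rfl⟩
    set ν' : Module.End K R := ν.restrict hmem with hν'
    have hpow : ν' ^ s = 0 := by
      rw [hν', Module.End.pow_restrict]
      ext ⟨y, x, rfl⟩
      simp only [LinearMap.coe_restrict_apply, LinearMap.zero_apply, ZeroMemClass.coe_zero]
      have : (ν ^ (s + 1)) x = 0 := by rw [h]; rfl
      rwa [pow_succ, Module.End.mul_apply] at this
    have hIH := ih ν' hpow
    set C := LinearMap.ker (LinearMap.mulLeft K ν - LinearMap.mulRight K ν) with hC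
    set C' := LinearMap.ker (LinearMap.mulLeft K ν' - LinearMap.mulRight K ν') with hC'
    -- auxiliary maps
    obtain ⟨j, hj⟩ := LinearMap.exists_rightInverse_of_surjective ν.rangeRestrict
      (LinearMap.range_rangeRestrict ν)
    obtain ⟨P, hP⟩ := LinearMap.exists_leftInverse_of_injective R.subtype (Submodule.ker_subtype R)
    have hj' : ∀ y : R, ν (j y) = (y : V) := by
      intro y
      have := LinearMap.congr_fun hj y
      exact congrArg Subtype.val this
    have hP' : ∀ y : R, P (y : V) = y := fun y => LinearMap.congr_fun hP y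
    have hν'v : ∀ y : R, ((ν' y : R) : V) = ν (y : V) := fun y => rfl
    let TS : Module.End K R →ₗ[K] Module.End K V :=
      { toFun := fun S => R.subtype ∘ₗ S ∘ₗ P +
          j ∘ₗ S ∘ₗ ν.rangeRestrict ∘ₗ (LinearMap.id - R.subtype ∘ₗ P)
        map_add' := by
          intro a b
          ext v
          simp only [LinearMap.add_apply, LinearMap.comp_apply, map_add, Submodule.subtype_apply]
          abel
        map_smul' := by
          intro c a
          ext v
          simp }
    let TA : ((V ⧸ R) →ₗ[K] LinearMap.ker ν) →ₗ[K] Module.End K V :=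
      { toFun := fun A => (LinearMap.ker ν).subtype ∘ₗ A ∘ₗ R.mkQ
        map_add' := by
          intro a b
          ext v
          simp
        map_smul' := by
          intro c a
          ext v
          simp }
    have hTS_R : ∀ (S : Module.End K R) (y : R), TS S (y : V) = (S y : V) := by
      intro S y
      show ((S (P (y : V)) : R) : V) + j (S (ν.rangeRestrict ((y : V) - ((P (y : V) : R) : V)))) = _
      rw [hP', sub_self, map_zero, map_zero, map_zero, add_zero]
    have hTA_R : ∀ (A : (V ⧸ R) →ₗ[K] LinearMap.ker ν) (y : R), TA A (y : V) = 0 := by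
      intro A y
      show ((A (R.mkQ (y : V)) : LinearMap.ker ν) : V) = 0
      have : R.mkQ (y : V) = 0 := by
        rw [Submodule.mkQ_apply, Submodule.Quotient.mk_eq_zero]; exact y.2
      rw [this, map_zero]; rfl
    have hTS_C : ∀ S ∈ C', TS S ∈ C := by
      intro S hS
      rw [hC', mem_cen] at hS
      rw [hC, mem_cen]
      intro v
      have e1 : TS S (ν v) = (S (ν.rangeRestrict v) : V) := hTS_R S (ν.rangeRestrict v)
      rw [e1]
      show ν (((S (P v) : R) : V) + j (S (ν.rangeRestrict (v - ((P v : R) : V))))) = _
      rw [map_add, hj', ← hν'v, hS, map_sub, map_sub]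
      have e2 : ν.rangeRestrict ((P v : R) : V) = ν' (P v) := rfl
      rw [e2]
      simp
    have hTA_C : ∀ A, TA A ∈ C := by
      intro A
      rw [hC, mem_cen]
      intro v
      have e1 : TA A (ν v) = 0 := hTA_R A (ν.rangeRestrict v)
      rw [e1]
      exact (A (R.mkQ v)).2
    let Φ : (((V ⧸ R) →ₗ[K] LinearMap.ker ν) × C') →ₗ[K] C :=
      { toFun := fun p => ⟨TA p.1 + TS p.2.1, C.add_mem (hTA_C p.1) (hTS_C p.2.1 p.2.2)⟩
        map_add' := by
          intro a b
          apply Subtype.ext
          simp only [Prod.fst_add, Prod.snd_add, Submodule.coe_add, map_add]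
          abel
        map_smul' := by
          intro c a
          apply Subtype.ext
          simp }
    have hΦ : Function.Injective Φ := by
      rw [injective_iff_map_eq_zero]
      rintro ⟨A, ⟨S, hS⟩⟩ h0
      have h1 : TA A + TS S = 0 := congrArg (fun z : C => (z : Module.End K V)) h0
      have hS0 : S = 0 := by
        ext y
        have := LinearMap.congr_fun h1 (y : V)
        rw [LinearMap.add_apply, hTA_R, hTS_R, zero_add] at this
        simpa using this
      subst hS0
      rw [map_zero, add_zero] at h1
      have hA0 : A = 0 := by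
        ext v
        have := LinearMap.congr_fun h1 v
        simpa [TA] using this
      subst hA0
      rfl
    have hle := LinearMap.finrank_le_finrank_of_injective hΦ
    have hfree : Module.Free K ↥C' := @Module.Free.of_divisionRing K ↥C' _ C'.addCommGroup C'.module
    rw [Module.finrank_prod, Module.finrank_linearMap] at hle
    have hrn : finrank K R + finrank K (LinearMap.ker ν) = finrank K V :=
      LinearMap.finrank_range_add_finrank_ker ν
    have hq := Submodule.finrank_quotient_add_finrank R
    have hm : finrank K (V ⧸ R) = finrank K (LinearMap.ker ν) := by omega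
    rw [hm] at hle
    have hd : finrank K V = finrank K (LinearMap.ker ν) + finrank K R := by omega
    rw [hd]
    exact (arith_aux s _ _ _ hIH).trans (Nat.mul_le_mul_left _ hle)

end Cfsg.Agent.Lib.Helper58.HH
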