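import Mathlib

set_option autoImplicit false

namespace Cfsg.Agent.Lib.Helper58.HH

open Module

/-- P2 -/
theorem finrank_le_mul_finrank_ker {K : Type*} [Field K] {W : Type*} [AddCommGroup W] [Module K W]
    [FiniteDimensional K W] (N : ℕ) (μ : Module.End K W) (h : μ ^ N = 0) :
    finrank K W ≤ N * finrank K (LinearMap.ker μ) := by
  induction N generalizing W with
  | zero =>
    rw [pow_zero] at h
    have hs : Subsingleton W := ⟨fun a b => by
      have ha : (1 : Module.End K W) a = 0 := by rw [h]; rfl
      have hb : (1 : Module.End K W) b = 0 := by rw [h]; rfl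
      simp only [Module.End.one_apply] at ha hb
      rw [ha, hb]⟩
    rw [finrank_zero_of_subsingleton]
    exact Nat.zero_le _
  | succ N ih =>
    set R := LinearMap.range μ with hR
    have hmem : ∀ x ∈ R, μ x ∈ R := fun x _ => ⟨x, rfl⟩
    set μ' : Module.End K R := μ.restrict hmem with hμ'
    have hpow : μ' ^ N = 0 := by
      rw [hμ', Module.End.pow_restrict]
      ext ⟨y, x, rfl⟩
      simp only [LinearMap.coe_restrict_apply, LinearMap.zero_apply, ZeroMemClass.coe_zero]
      have : (μ ^ (N + 1)) x = 0 := by rw [h]; rfl
      rwa [pow_succ, Module.End.mul_apply] at this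
    have h1 := ih μ' hpow
    have h2 : finrank K (LinearMap.ker μ') ≤ finrank K (LinearMap.ker μ) := by
      let f : LinearMap.ker μ' →ₗ[K] LinearMap.ker μ :=
        { toFun := fun y => ⟨y.1.1, by
            have := y.2
            rw [LinearMap.mem_ker] at this ⊢
            exact congrArg Subtype.val this⟩
          map_add' := fun a b => rfl
          map_smul' := fun c a => rfl }
      refine LinearMap.finrank_le_finrank_of_injective (f := f) ?_
      intro a b hab
      apply Subtype.ext
      apply Subtype.ext
      exact congrArg (fun z : LinearMap.ker μ => (z : W)) hab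
    have h3 := LinearMap.finrank_range_add_finrank_ker μ
    calc finrank K W = finrank K R + finrank K (LinearMap.ker μ) := h3.symm
      _ ≤ N * finrank K (LinearMap.ker μ) + finrank K (LinearMap.ker μ) :=
        Nat.add_le_add_right (h1.trans (Nat.mul_le_mul_left N h2)) _
      _ = (N + 1) * finrank K (LinearMap.ker μ) := by ring

end Cfsg.Agent.Lib.Helper58.HH
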