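import Mathlib

set_option autoImplicit false

namespace Cfsg.Agent.Lib.Helper58.HH

open Module

/-- P4 -/
theorem mul_finrank_invariants_le {K : Type*} [Field K] {X : Type*} [Fintype X] (π : Equiv.Perm X) (N : ℕ)
    (hN : π ^ N = 1) (hfree : ∀ i, 0 < i → i < N → ∀ a, (π ^ i) a ≠ a) :
    N * finrank K (LinearMap.ker ((LinearMap.funLeft K K π : Module.End K (X → K)) - 1)) ≤ Fintype.card X := by
  classical
  let s : Setoid X := Equiv.Perm.SameCycle.setoid π
  have hfinΩ : Fintype (Quotient s) := Fintype.ofFinite _
  have hout : ∀ x : X, π.SameCycle (Quotient.out (Quotient.mk s x)) x :=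
    fun x => Quotient.exact (Quotient.out_eq (Quotient.mk s x))
  have hinv : ∀ f ∈ LinearMap.ker ((LinearMap.funLeft K K π : Module.End K (X → K)) - 1),
      ∀ x, f (π x) = f x := by
    intro f hf x
    rw [LinearMap.mem_ker, LinearMap.sub_apply, Module.End.one_apply, sub_eq_zero] at hf
    have := congrFun hf x
    rwa [LinearMap.funLeft_apply] at this
  have hconst : ∀ f ∈ LinearMap.ker ((LinearMap.funLeft K K π : Module.End K (X → K)) - 1),
      ∀ x y, π.SameCycle x y → f x = f y := by
    intro f hf x y hxy
    obtain ⟨i, rfl⟩ := hxy.exists_nat_pow_eq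
    induction i with
    | zero => simp
    | succ i ih =>
      rw [pow_succ', Equiv.Perm.mul_apply, hinv f hf]
      exact ih ⟨i, rfl⟩
  have h1 : finrank K (LinearMap.ker ((LinearMap.funLeft K K π : Module.End K (X → K)) - 1)) ≤
      Fintype.card (Quotient s) := by
    rw [← Module.finrank_fintype_fun_eq_card K]
    let φ : LinearMap.ker ((LinearMap.funLeft K K π : Module.End K (X → K)) - 1) →ₗ[K]
        (Quotient s → K) :=
      { toFun := fun f ω => f.1 (Quotient.out ω)
        map_add' := fun a b => rfl
        map_smul' := fun c a => rfl }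
    refine LinearMap.finrank_le_finrank_of_injective (f := φ) ?_
    rw [← LinearMap.ker_eq_bot, LinearMap.ker_eq_bot']
    intro f hf
    apply Subtype.ext
    funext x
    have h2 : f.1 (Quotient.out (Quotient.mk s x)) = 0 := congrFun hf (Quotient.mk s x)
    rw [← hconst f.1 f.2 _ _ (hout x), h2]
    rfl
  have h2 : N * Fintype.card (Quotient s) ≤ Fintype.card X := by
    rw [← Fintype.card_fin N, ← Fintype.card_prod]
    refine Fintype.card_le_of_injective
      (fun p : Fin N × Quotient s => (π ^ (p.1 : ℕ)) (Quotient.out p.2)) ?_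
    have key : ∀ (i j : ℕ), i ≤ j → j < N → ∀ x, (π ^ i) x = (π ^ j) x → i = j := by
      intro i j hij hj x h
      by_contra hne
      have hlt : 0 < j - i := by omega
      apply hfree (j - i) hlt (by omega) x
      have : j = i + (j - i) := by omega
      rw [this, pow_add, Equiv.Perm.mul_apply] at h
      exact ((π ^ i).injective h).symm
    rintro ⟨i, ω⟩ ⟨j, ω'⟩ h
    simp only at h
    have hω : ω = ω' := by
      rw [← Quotient.out_eq ω, ← Quotient.out_eq ω']
      apply Quotient.sound
      show π.SameCycle _ _
      have e1 : π.SameCycle (Quotient.out ω) ((π ^ (i : ℕ)) (Quotient.out ω)) := ⟨i, by simp⟩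
      have e2 : π.SameCycle (Quotient.out ω') ((π ^ (j : ℕ)) (Quotient.out ω')) := ⟨j, by simp⟩
      rw [h] at e1
      exact e1.trans e2.symm
    subst hω
    have hij : (i : ℕ) = j := by
      rcases le_total (i : ℕ) j with hle | hle
      · exact key i j hle j.2 _ h
      · exact (key j i hle i.2 _ h.symm).symm
    rw [Fin.ext hij]
  exact (Nat.mul_le_mul_left N h1).trans h2

end Cfsg.Agent.Lib.Helper58.HH
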