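import Mathlib
import Cfsg.Agent.Lib.Helper58.HHP2

set_option autoImplicit false

namespace Cfsg.Agent.Lib.Helper58.HH

open Module

/-- P6 -/
theorem split_bound {K : Type*} [Field K] {U F : Type*} [AddCommGroup U] [Module K U] [FiniteDimensional K U]
    [AddCommGroup F] [Module K F] [FiniteDimensional K F]
    (γU : Module.End K U) (γF : Module.End K F) (α : U →ₗ[K] F) (β : F →ₗ[K] U) (c : K) (hc : c ≠ 0)
    (hα : ∀ u, α (γU u) = γF (α u)) (hβ : ∀ f, β (γF f) = γU (β f)) (hβα : ∀ u, β (α u) = c • u)
    (N e : ℕ) (hN : (γF - 1) ^ N = 0) (hF : N * finrank K (LinearMap.ker (γF - 1)) ≤ finrank K F + e) :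
    N * finrank K (LinearMap.ker (γU - 1)) ≤ finrank K U + e := by
  set B := LinearMap.ker β with hB
  have hBinv : ∀ x ∈ B, (γF - 1) x ∈ B := by
    intro x hx
    rw [hB, LinearMap.mem_ker] at hx ⊢
    rw [LinearMap.sub_apply, Module.End.one_apply, map_sub, hβ, hx, map_zero, sub_zero]
  set δ : Module.End K B := (γF - 1).restrict hBinv with hδ
  have hδN : δ ^ N = 0 := by
    rw [hδ, Module.End.pow_restrict]
    ext ⟨y, hy⟩
    simp only [LinearMap.coe_restrict_apply, LinearMap.zero_apply, ZeroMemClass.coe_zero]
    rw [hN]; rfl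
  have h1 := finrank_le_mul_finrank_ker N δ hδN
  have hsurj : Function.Surjective β := by
    intro u
    refine ⟨α (c⁻¹ • u), ?_⟩
    rw [hβα, smul_smul, mul_inv_cancel₀ hc, one_smul]
  have h2 : finrank K U + finrank K B = finrank K F := by
    have := LinearMap.finrank_range_add_finrank_ker β
    rwa [LinearMap.range_eq_top.2 hsurj, finrank_top] at this
  have h3 : finrank K (LinearMap.ker (γU - 1)) + finrank K (LinearMap.ker δ) ≤
      finrank K (LinearMap.ker (γF - 1)) := by
    rw [← Module.finrank_prod]
    let g : (LinearMap.ker (γU - 1) × LinearMap.ker δ) →ₗ[K] LinearMap.ker (γF - 1) :=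
      { toFun := fun p => ⟨α p.1.1 + p.2.1.1, by
          have hu := p.1.2
          have hf := p.2.2
          rw [LinearMap.mem_ker] at hu hf ⊢
          have hf' : (γF - 1) p.2.1.1 = 0 := congrArg Subtype.val hf
          rw [map_add, hf', add_zero, LinearMap.sub_apply, Module.End.one_apply, ← hα, ← map_sub]
          rw [LinearMap.sub_apply, Module.End.one_apply] at hu
          rw [hu, map_zero]⟩
        map_add' := by
          intro a b
          apply Subtype.ext
          simp only [Prod.fst_add, Prod.snd_add, Submodule.coe_add, map_add]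
          abel
        map_smul' := by
          intro r a
          apply Subtype.ext
          simp }
    refine LinearMap.finrank_le_finrank_of_injective (f := g) ?_
    rw [← LinearMap.ker_eq_bot, LinearMap.ker_eq_bot']
    rintro ⟨⟨u, hu⟩, ⟨⟨f, hfB⟩, hf⟩⟩ h0
    have h4 : α u + f = 0 := congrArg (fun z : LinearMap.ker (γF - 1) => (z : F)) h0
    have h5 : β f = 0 := hfB
    have h6 : c • u = 0 := by
      have := congrArg β h4
      rwa [map_add, hβα, h5, add_zero, map_zero] at this
    have hu0 : u = 0 := (smul_eq_zero.1 h6).resolve_left hc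
    subst hu0
    rw [map_zero, zero_add] at h4
    subst h4
    rfl
  have h4 := Nat.mul_le_mul_left N h3
  rw [Nat.mul_add] at h4
  omega

end Cfsg.Agent.Lib.Helper58.HH
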