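import Mathlib
import Cfsg.Prelude.Def_Characters
import Cfsg.Agent.Lib.Helper3.Table
import Cfsg.Agent.Lib.Helper3.Perm

set_option autoImplicit false
set_option linter.unusedSectionVars false

/-!
# Isotypic projections and multiplicity one constituents
-/

namespace Cfsg.Agent.Lib.Helper58

open Module Representation Cfsg Cfsg.Agent.Lib.Helper3
open scoped ComplexConjugate

section general

variable {G : Type*} [Group G] [Fintype G] {V : Type*} [AddCommGroup V] [Module ℂ V]
  [FiniteDimensional ℂ V]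

/-- Two operators agreeing on all irreducible invariant subspaces are equal. -/
theorem ext_on_irr (ρ : Representation ℂ G V) (S T : V →ₗ[ℂ] V)
    (h : ∀ (p : Submodule ℂ V) (hp : Inv ρ p), (subrep ρ p hp).IsIrreducible →
      ∀ v ∈ p, S v = T v) : S = T := by
  have hker : LinearMap.ker (S - T) = ⊤ := by
    rw [eq_top_iff, ← sSup_irreducible_eq_top ρ]
    apply sSup_le
    rintro p ⟨hp, hirr⟩ v hv
    rw [LinearMap.mem_ker, LinearMap.sub_apply, h p hp hirr v hv, sub_self]
  exact sub_eq_zero.mp (LinearMap.ker_eq_top.mp hker)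

/-- `opOf f ρ` acts as an explicit scalar on every irreducible invariant subspace. -/
theorem opOf_apply_of_mem {f : G → ℂ} (hf : IsClassFunction G f) (ρ : Representation ℂ G V)
    (p : Submodule ℂ V) (hp : Inv ρ p) (hirr : (subrep ρ p hp).IsIrreducible) {v : V}
    (hv : v ∈ p) :
    opOf f ρ v = ((Nat.card G : ℂ) * classInner f (subrep ρ p hp).character /
      (finrank ℂ p : ℂ)) • v := by
  have h1 := opOf_irr hf (subrep ρ p hp)
  have h2 := congrArg (fun T => ((T ⟨v, hv⟩ : p) : V)) h1
  simp only [opOf_apply, LinearMap.smul_apply, LinearMap.id_apply, Submodule.coe_smul] at h2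
  rw [opOf_apply, ← h2]
  simp

theorem finrank_ne_zero_of_irr (ρ : Representation ℂ G V)
    (p : Submodule ℂ V) (hp : Inv ρ p) (hirr : (subrep ρ p hp).IsIrreducible) :
    (finrank ℂ p : ℂ) ≠ 0 := by
  have := ((isIrreducible_iff _).mp hirr).1
  exact_mod_cast (Module.finrank_pos (R := ℂ) (M := p)).ne'

/-- The (normalised) isotypic projection. -/
noncomputable def isoProj (χ : G → ℂ) (ρ : Representation ℂ G V) : V →ₗ[ℂ] V :=
  (χ 1 / (Nat.card G : ℂ)) • opOf χ ρ

theorem isoProj_apply_eq {χ : G → ℂ} (hχ : IsIrrCharacter G χ) (ρ : Representation ℂ G V)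
    (p : Submodule ℂ V) (hp : Inv ρ p) (hirr : (subrep ρ p hp).IsIrreducible)
    (hc : (subrep ρ p hp).character = χ) {v : V} (hv : v ∈ p) : isoProj χ ρ v = v := by
  have hc0 : (Nat.card G : ℂ) ≠ 0 := by exact_mod_cast Nat.card_pos.ne'
  have h0 := finrank_ne_zero_of_irr ρ p hp hirr
  have h1 : χ 1 = (finrank ℂ p : ℂ) := by rw [← hc, char_one]
  rw [isoProj, LinearMap.smul_apply, opOf_apply_of_mem (IsIrrCharacter.isClassFunction hχ) ρ p hp hirr hv, hc,
    classInner_irr_self hχ, smul_smul, h1]
  have : (finrank ℂ p : ℂ) / (Nat.card G : ℂ) * ((Nat.card G : ℂ) * 1 / (finrank ℂ p : ℂ)) = 1 := by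
    field_simp
  rw [this, one_smul]

theorem isoProj_apply_ne {χ : G → ℂ} (hχ : IsIrrCharacter G χ) (ρ : Representation ℂ G V)
    (p : Submodule ℂ V) (hp : Inv ρ p) (hirr : (subrep ρ p hp).IsIrreducible)
    (hc : (subrep ρ p hp).character ≠ χ) {v : V} (hv : v ∈ p) : isoProj χ ρ v = 0 := by
  rw [isoProj, LinearMap.smul_apply, opOf_apply_of_mem (IsIrrCharacter.isClassFunction hχ) ρ p hp hirr hv,
    classInner_irr_ne hχ (isIrrCharacter_of_rep _ hirr) (Ne.symm hc)]
  simp

theorem trace_isoProj (χ : G → ℂ) (ρ : Representation ℂ G V) :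
    LinearMap.trace ℂ V (isoProj χ ρ) = χ 1 * classInner χ ρ.character := by
  have hc0 : (Nat.card G : ℂ) ≠ 0 := by exact_mod_cast Nat.card_pos.ne'
  rw [isoProj, map_smul, trace_opOf, smul_eq_mul]
  field_simp

theorem isoProj_comm_of_comm (χ : G → ℂ) (ρ : Representation ℂ G V) (T : V →ₗ[ℂ] V)
    (hT : ∀ g, T ∘ₗ ρ g = ρ g ∘ₗ T) : T ∘ₗ isoProj χ ρ = isoProj χ ρ ∘ₗ T := by
  ext v
  simp only [isoProj, LinearMap.comp_apply, LinearMap.smul_apply, opOf_apply, map_smul, map_sum]
  congr 1
  refine Finset.sum_congr rfl fun g _ => ?_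
  congr 1
  exact LinearMap.congr_fun (hT g⁻¹) v

theorem isoProj_comm {χ : G → ℂ} (hχ : IsClassFunction G χ) (ρ : Representation ℂ G V) (g : G) :
    isoProj χ ρ ∘ₗ ρ g = ρ g ∘ₗ isoProj χ ρ := by
  rw [isoProj, LinearMap.smul_comp, LinearMap.comp_smul, opOf_comm hχ]

theorem isoProj_idem {χ : G → ℂ} (hχ : IsIrrCharacter G χ) (ρ : Representation ℂ G V) :
    IsIdempotentElem (isoProj χ ρ) := by
  apply ext_on_irr ρ
  intro p hp hirr v hv
  rw [Module.End.mul_apply]
  by_cases hc : (subrep ρ p hp).character = χ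
  · rw [isoProj_apply_eq hχ ρ p hp hirr hc hv, isoProj_apply_eq hχ ρ p hp hirr hc hv]
  · rw [isoProj_apply_ne hχ ρ p hp hirr hc hv, map_zero]

theorem classInner_char_irr_comm (ρ : Representation ℂ G V) {χ : G → ℂ}
    (hχ : IsIrrCharacter G χ) : classInner χ ρ.character = classInner ρ.character χ := by
  obtain ⟨n, hn⟩ := IsCharacter.classInner_eq_natCast (isCharacter_of_rep ρ) (IsIrrCharacter.isCharacter hχ)
  rw [← classInner_conj_symm, hn, Complex.conj_natCast]

/-- the range of the isotypic projection has dimension `m_χ χ(1)` -/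
theorem finrank_range_isoProj {χ : G → ℂ} (hχ : IsIrrCharacter G χ) (ρ : Representation ℂ G V) :
    (finrank ℂ (LinearMap.range (isoProj χ ρ)) : ℂ) = χ 1 * classInner ρ.character χ := by
  rw [← classInner_char_irr_comm ρ hχ, ← trace_isoProj,
    (LinearMap.IsIdempotentElem.isProj_range _ (isoProj_idem hχ ρ)).trace]

/-- A constituent is afforded by an irreducible invariant subspace. -/
theorem exists_irr_sub (ρ : Representation ℂ G V) {χ : G → ℂ} (hχ : IsIrrCharacter G χ)
    (h : classInner ρ.character χ ≠ 0) :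
    ∃ (p : Submodule ℂ V) (hp : Inv ρ p), (subrep ρ p hp).IsIrreducible ∧
      (subrep ρ p hp).character = χ := by
  by_contra hcon
  push Not at hcon
  have h0 : isoProj χ ρ = 0 := by
    apply ext_on_irr ρ
    intro p hp hirr v hv
    rw [isoProj_apply_ne hχ ρ p hp hirr (hcon p hp hirr) hv, LinearMap.zero_apply]
  have h1 := trace_isoProj χ ρ
  rw [h0, map_zero, classInner_char_irr_comm ρ hχ] at h1
  rcases mul_eq_zero.mp h1.symm with h2 | h2
  · exact IsIrrCharacter.apply_one_ne_zero hχ h2
  · exact h h2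

/-- The character of an irreducible invariant subspace is a constituent. -/
theorem classInner_sub_ne_zero (ρ : Representation ℂ G V)
    (p : Submodule ℂ V) (hp : Inv ρ p) (hirr : (subrep ρ p hp).IsIrreducible) :
    classInner ρ.character (subrep ρ p hp).character ≠ 0 := by
  obtain ⟨q, hq, hc⟩ := exists_inv_isCompl ρ p hp
  have hχ := isIrrCharacter_of_rep _ hirr
  rw [char_eq_add_of_isCompl ρ p q hp hq hc, classInner_add_left, classInner_irr_self hχ]
  obtain ⟨n, hn⟩ := IsCharacter.classInner_eq_natCast (isCharacter_of_rep (subrep ρ q hq))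
    (IsIrrCharacter.isCharacter hχ)
  rw [hn]
  exact_mod_cast (Nat.succ_ne_zero n) ∘ (by omega)

/-- A multiplicity one irreducible invariant subspace is the range of the isotypic projection. -/
theorem eq_range_isoProj (ρ : Representation ℂ G V)
    (p : Submodule ℂ V) (hp : Inv ρ p) (hirr : (subrep ρ p hp).IsIrreducible)
    (h1 : classInner ρ.character (subrep ρ p hp).character = 1) :
    p = LinearMap.range (isoProj (subrep ρ p hp).character ρ) := by
  have hχ := isIrrCharacter_of_rep _ hirr
  apply Submodule.eq_of_le_of_finrank_eq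
  · intro v hv
    exact ⟨v, isoProj_apply_eq hχ ρ p hp hirr rfl hv⟩
  · have := finrank_range_isoProj hχ ρ
    rw [h1, mul_one, char_one] at this
    exact_mod_cast this.symm

/-- Operators commuting with `ρ` act as scalars on multiplicity one irreducible subspaces. -/
theorem exists_scalar_of_mult_one (ρ : Representation ℂ G V)
    (p : Submodule ℂ V) (hp : Inv ρ p) (hirr : (subrep ρ p hp).IsIrreducible)
    (h1 : classInner ρ.character (subrep ρ p hp).character = 1)
    (T : V →ₗ[ℂ] V) (hT : ∀ g, T ∘ₗ ρ g = ρ g ∘ₗ T) : ∃ c : ℂ, ∀ v ∈ p, T v = c • v := by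
  have hmaps : ∀ v ∈ p, T v ∈ p := by
    intro v hv
    have hχ := isIrrCharacter_of_rep _ hirr
    rw [eq_range_isoProj ρ p hp hirr h1]
    refine ⟨T v, ?_⟩
    have := LinearMap.congr_fun (isoProj_comm_of_comm (subrep ρ p hp).character ρ T hT) v
    simp only [LinearMap.comp_apply] at this
    rw [← this, isoProj_apply_eq hχ ρ p hp hirr rfl hv]
  obtain ⟨c, hc⟩ := schur_scalar (subrep ρ p hp) (T.restrict hmaps) (by
    intro g
    ext v
    simp only [LinearMap.comp_apply, LinearMap.coe_restrict_apply, subrep_apply_coe]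
    exact LinearMap.congr_fun (hT g) v)
  refine ⟨c, fun v hv => ?_⟩
  have := congrArg (fun S => ((S ⟨v, hv⟩ : p) : V)) hc
  simpa using this

/-- Uniqueness of a multiplicity one irreducible invariant subspace. -/
theorem eq_of_char_eq_of_mult_one (ρ : Representation ℂ G V)
    (p : Submodule ℂ V) (hp : Inv ρ p) (hirr : (subrep ρ p hp).IsIrreducible)
    (h1 : classInner ρ.character (subrep ρ p hp).character = 1)
    (p' : Submodule ℂ V) (hp' : Inv ρ p') (hirr' : (subrep ρ p' hp').IsIrreducible)
    (hc : (subrep ρ p' hp').character = (subrep ρ p hp).character) : p' = p := by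
  rw [eq_range_isoProj ρ p hp hirr h1, eq_range_isoProj ρ p' hp' hirr' (by rw [hc]; exact h1), hc]

end general

end Cfsg.Agent.Lib.Helper58
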