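import Mathlib
import Cfsg.Prelude.Def_Characters
import Cfsg.Agent.Lib.Helper58.MultFree

set_option autoImplicit false
set_option linter.unusedSectionVars false

/-!
# Generalised eigenspaces of an operator commuting with a representation
-/

namespace Cfsg.Agent.Lib.Helper58

open Module Representation Cfsg Cfsg.Agent.Lib.Helper3
open scoped ComplexConjugate

section general

variable {G : Type*} [Group G] [Fintype G] {V : Type*} [AddCommGroup V] [Module ℂ V]
  [FiniteDimensional ℂ V]

/-- A nonzero fixed vector forces the principal character to be a constituent. -/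
theorem classInner_one_ne_zero_of_fixed (σ : Representation ℂ G V) (v : V) (hv : v ≠ 0)
    (hfix : ∀ g, σ g v = v) : classInner σ.character (fun _ => (1 : ℂ)) ≠ 0 := by
  have hc0 : (Nat.card G : ℂ) ≠ 0 := by exact_mod_cast Nat.card_pos.ne'
  intro h0
  have h1 := finrank_range_isoProj (isIrrCharacter_one (G := G)) σ
  rw [h0, mul_zero] at h1
  have h2 : finrank ℂ (LinearMap.range (isoProj (fun _ : G => (1 : ℂ)) σ)) = 0 := by
    exact_mod_cast h1
  rw [Submodule.finrank_eq_zero] at h2
  have h3 : isoProj (fun _ : G => (1 : ℂ)) σ v = v := by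
    rw [isoProj, LinearMap.smul_apply, opOf_apply]
    simp only [hfix, one_smul, Finset.sum_const, Finset.card_univ, ← Nat.card_eq_fintype_card]
    rw [← Nat.cast_smul_eq_nsmul ℂ, smul_smul, one_div, inv_mul_cancel₀ hc0, one_smul]
  have h4 : v ∈ LinearMap.range (isoProj (fun _ : G => (1 : ℂ)) σ) := ⟨v, h3⟩
  rw [h2, Submodule.mem_bot] at h4
  exact hv h4

theorem inv_maxGenEigenspace (ρ : Representation ℂ G V) (T : V →ₗ[ℂ] V)
    (hT : ∀ g, T ∘ₗ ρ g = ρ g ∘ₗ T) (μ : ℂ) : Inv ρ (Module.End.maxGenEigenspace T μ) := by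
  intro g v hv
  exact Module.End.mapsTo_maxGenEigenspace_of_comm (f := T) (g := ρ g) (hT g) μ hv

theorem trace_restrict_maxGenEigenspace (T : V →ₗ[ℂ] V) (μ : ℂ)
    (h : Set.MapsTo T (Module.End.maxGenEigenspace T μ) (Module.End.maxGenEigenspace T μ)) :
    LinearMap.trace ℂ _ (T.restrict h) = μ * (finrank ℂ (Module.End.maxGenEigenspace T μ) : ℂ) := by
  have hnil := Module.End.isNilpotent_restrict_maxGenEigenspace_sub_algebraMap T μ
  have h0 : LinearMap.trace ℂ _ ((T - algebraMap ℂ (Module.End ℂ V) μ).restrict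
      (Module.End.mapsTo_maxGenEigenspace_of_comm (Algebra.mul_sub_algebraMap_commutes T μ) μ))
      = 0 := (LinearMap.isNilpotent_trace_of_isNilpotent hnil).eq_zero
  have h1 : T.restrict h = (T - algebraMap ℂ (Module.End ℂ V) μ).restrict
      (Module.End.mapsTo_maxGenEigenspace_of_comm (Algebra.mul_sub_algebraMap_commutes T μ) μ)
      + μ • LinearMap.id := by
    ext v
    change T (v : V) = (T (v : V) - μ • (v : V)) + μ • (v : V)
    abel
  rw [h1, map_add, h0, zero_add, map_smul, LinearMap.trace_id, smul_eq_mul]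

/-- Decomposition of a representation along the generalised eigenspaces of a commuting operator. -/
theorem genEig_decomp (ρ : Representation ℂ G V) (T : V →ₗ[ℂ] V)
    (hT : ∀ g, T ∘ₗ ρ g = ρ g ∘ₗ T) :
    ∃ (S : Finset ℂ) (φ : ℂ → G → ℂ), (∀ μ ∈ S, Module.End.HasEigenvalue T μ) ∧
      (∀ μ, IsCharacter G (φ μ)) ∧ ρ.character = ∑ μ ∈ S, φ μ ∧
      LinearMap.trace ℂ V T = ∑ μ ∈ S, μ * φ μ 1 ∧
      (∀ (c : ℂ) (v : V), v ≠ 0 → (∀ g, ρ g v = v) → T v = c • v →
        c ∈ S ∧ classInner (φ c) (fun _ => (1 : ℂ)) ≠ 0) := by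
  classical
  have hW := inv_maxGenEigenspace ρ T hT
  have hind : iSupIndep (Module.End.maxGenEigenspace T) := Module.End.independent_maxGenEigenspace T
  have hint : DirectSum.IsInternal (Module.End.maxGenEigenspace T) :=
    DirectSum.isInternal_submodule_of_iSupIndep_of_iSup_eq_top hind
      (Module.End.iSup_maxGenEigenspace_eq_top T)
  have hfin : {μ | Module.End.maxGenEigenspace T μ ≠ ⊥}.Finite :=
    WellFoundedGT.finite_ne_bot_of_iSupIndep hind
  refine ⟨hfin.toFinset, fun μ => (subrep ρ _ (hW μ)).character, ?_, ?_, ?_, ?_, ?_⟩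
  · intro μ hμ
    rw [Set.Finite.mem_toFinset] at hμ
    exact Module.End.HasUnifEigenvalue.lt zero_lt_one hμ
  · intro μ
    exact isCharacter_of_rep _
  · ext g
    rw [Finset.sum_apply]
    exact LinearMap.trace_eq_sum_trace_restrict' hint hfin (f := ρ g) (fun μ => hW μ g)
  · rw [LinearMap.trace_eq_sum_trace_restrict' hint hfin (f := T)
      (fun μ => Module.End.mapsTo_maxGenEigenspace_of_comm (Commute.refl T) μ)]
    refine Finset.sum_congr rfl fun μ _ => ?_
    rw [trace_restrict_maxGenEigenspace]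
    simp only [char_one]
  · intro c v hv hfix hTv
    have hmem : v ∈ Module.End.maxGenEigenspace T c := by
      have h1 : v ∈ Module.End.eigenspace T c := Module.End.mem_eigenspace_iff.mpr hTv
      exact (Module.End.genEigenspace T c).monotone le_top h1
    refine ⟨?_, ?_⟩
    · rw [Set.Finite.mem_toFinset]
      intro h0
      rw [h0, Submodule.mem_bot] at hmem
      exact hv hmem
    · apply classInner_one_ne_zero_of_fixed _ (⟨v, hmem⟩ : Module.End.maxGenEigenspace T c)
      · intro h0
        exact hv (congrArg Subtype.val h0)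
      · intro g
        apply Subtype.ext
        exact hfix g

/-- Eigenvalues of an integral operator are algebraic integers. -/
theorem isIntegral_of_hasEigenvalue {T : V →ₗ[ℂ] V} (hT : IsIntegral ℤ T) {μ : ℂ}
    (hμ : Module.End.HasEigenvalue T μ) : IsIntegral ℤ μ := by
  obtain ⟨p, hp, hp0⟩ := hT
  obtain ⟨v, hv⟩ := hμ.exists_hasEigenvector
  refine ⟨p, hp, ?_⟩
  have h1 := Module.End.aeval_apply_of_hasEigenvector (p := p.map (algebraMap ℤ ℂ)) hv
  have h2 : Polynomial.aeval T (p.map (algebraMap ℤ ℂ)) = 0 := by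
    rw [Polynomial.aeval_map_algebraMap]
    rw [← hp0]
    rfl
  rw [h2, LinearMap.zero_apply, Polynomial.eval_map] at h1
  rcases smul_eq_zero.mp h1.symm with h3 | h3
  · exact h3
  · exact absurd h3 hv.2

end general

end Cfsg.Agent.Lib.Helper58
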