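import Cfsg.Agent.Lib.Helper14.MinIdx.Defs

set_option autoImplicit false
set_option linter.style.haveILetI false
set_option linter.unusedVariables false

/-! S2140 farm (helper14), pieces A1, A2: double counting and Burnside for `Act`. -/

namespace Cfsg.Agent.Lib.Helper58.MinIdx

open Matrix Cfsg.Agent.Lib.Helper57.RootSL Cfsg.Agent.Lib.Helper14.MinIdx

variable {A Ω : Type*} [AddCommGroup A]

/-- double counting of `{(a, ω) | a ∈ M, τ a ω = ω}`. -/
theorem sum_card_St_inf [Finite A] [Fintype Ω] (T : Act A Ω) (M : AddSubgroup A) :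
    ∑ ω, Nat.card ↥(T.St ω ⊓ M) = ∑ᶠ a ∈ (M : Set A), Nat.card {ω : Ω // T.τ a ω = ω} := by
  classical
  haveI : Fintype A := Fintype.ofFinite A
  have h1 : ∀ ω, Nat.card ↥(T.St ω ⊓ M) =
      ∑ a : A, if (a ∈ M ∧ T.τ a ω = ω) then 1 else 0 := by
    intro ω
    rw [Finset.sum_boole, Nat.cast_id, Nat.card_eq_fintype_card, ← Fintype.card_subtype]
    exact Fintype.card_congr (Equiv.subtypeEquivRight (fun a => by
      rw [AddSubgroup.mem_inf, T.mem_St, and_comm]))
  have h2 : ∀ a : A, (if a ∈ M then Nat.card {ω : Ω // T.τ a ω = ω} else 0) =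
      ∑ ω : Ω, if (a ∈ M ∧ T.τ a ω = ω) then 1 else 0 := by
    intro a
    by_cases ha : a ∈ M
    · simp only [ha, if_true, true_and]
      rw [Finset.sum_boole, Nat.cast_id, Nat.card_eq_fintype_card, ← Fintype.card_subtype]
    · simp [ha]
  rw [finsum_mem_eq_finite_toFinset_sum _ (Set.toFinite _)]
  simp_rw [h1]
  rw [Finset.sum_comm]
  simp_rw [← h2]
  rw [← Finset.sum_filter]
  apply Finset.sum_congr _ (fun _ _ => rfl)
  ext a
  simp

theorem sum_card_St [Finite A] [Fintype Ω] [Fintype A] (T : Act A Ω) :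
    ∑ ω, Nat.card (T.St ω) = ∑ a : A, Nat.card {ω : Ω // T.τ a ω = ω} := by
  have h := sum_card_St_inf T ⊤
  simp only [inf_top_eq] at h
  rw [h, finsum_mem_eq_finite_toFinset_sum _ (Set.toFinite _)]
  apply Finset.sum_congr _ (fun _ _ => rfl)
  ext a
  simp

theorem A1 {A Ω : Type*} [AddCommGroup A] [Finite A] [Fintype Ω] (T : Act A Ω) (φ0 : ℕ) (hfix : ∀ a : A, a ≠ 0 → Nat.card {ω : Ω // T.τ a ω = ω} = φ0) :
    ∑ ω, Nat.card (T.St ω) = Fintype.card Ω + (Nat.card A - 1) * φ0 := by
  classical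
  haveI : Fintype A := Fintype.ofFinite A
  rw [sum_card_St T, ← Finset.add_sum_erase Finset.univ _ (Finset.mem_univ (0 : A))]
  congr 1
  · rw [T.zero, Nat.card_eq_fintype_card]
    exact Fintype.card_congr (Equiv.subtypeUnivEquiv (fun ω => rfl))
  · rw [Finset.sum_congr rfl (fun a ha => hfix a (Finset.ne_of_mem_erase ha)), Finset.sum_const,
      Finset.card_erase_of_mem (Finset.mem_univ _), Finset.card_univ, Nat.card_eq_fintype_card,
      smul_eq_mul]

/-- the homomorphism `Multiplicative A →* Perm Ω`. -/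
def homOf (T : Act A Ω) : Multiplicative A →* Equiv.Perm Ω where
  toFun a := T.τ a.toAdd
  map_one' := T.zero
  map_mul' a b := T.add _ _

theorem A2 {A Ω : Type*} [AddCommGroup A] [Finite A] [Fintype Ω] (T : Act A Ω) : Nat.card A ∣ ∑ ω, Nat.card (T.St ω) := by
  classical
  haveI : Fintype A := Fintype.ofFinite A
  letI : MulAction (Multiplicative A) Ω := MulAction.compHom Ω (homOf T)
  have h := MulAction.sum_card_fixedBy_eq_card_orbits_mul_card_group (Multiplicative A) Ω
  rw [sum_card_St T]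
  have e : ∑ a : A, Nat.card {ω : Ω // T.τ a ω = ω} =
      ∑ a : Multiplicative A, Fintype.card (MulAction.fixedBy Ω a) := by
    rw [← Equiv.sum_comp Multiplicative.ofAdd]
    apply Finset.sum_congr rfl
    intro a _
    rw [Nat.card_eq_fintype_card]
    exact Fintype.card_congr (Equiv.subtypeEquivRight (fun ω => Iff.rfl))
  rw [e, h, Nat.card_eq_fintype_card]
  exact Dvd.intro_left _ (by rw [Fintype.card_multiplicative])

end Cfsg.Agent.Lib.Helper58.MinIdx
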