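import Cfsg.Agent.Lib.Helper58.MinIdxA1

set_option autoImplicit false
set_option linter.style.haveILetI false
set_option linter.unusedVariables false

/-! S2140 farm (helper14), piece A3. -/

namespace Cfsg.Agent.Lib.Helper58.MinIdx

open Matrix Cfsg.Agent.Lib.Helper57.RootSL Cfsg.Agent.Lib.Helper14.MinIdx

variable {A Ω : Type*} [AddCommGroup A]

/-- restriction of an action to a subgroup. -/
def restr (T : Act A Ω) (M : AddSubgroup A) : Act M Ω where
  τ m := T.τ m
  add a b := T.add a b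

theorem card_St_restr (T : Act A Ω) (M : AddSubgroup A) (ω : Ω) :
    Nat.card ((restr T M).St ω) = Nat.card ↥(T.St ω ⊓ M) :=
  Nat.card_congr
    { toFun := fun x => ⟨x.1.1, ⟨x.2, x.1.2⟩⟩
      invFun := fun y => ⟨⟨y.1, y.2.2⟩, y.2.1⟩
      left_inv := fun x => rfl
      right_inv := fun y => rfl }

theorem card_mul_relIndex' {H K : AddSubgroup A} (h : H ≤ K) :
    Nat.card H * H.relIndex K = Nat.card K := by
  have e1 := AddSubgroup.relIndex_mul_relIndex ⊥ H K bot_le h
  rwa [AddSubgroup.relIndex_bot_left, AddSubgroup.relIndex_bot_left] at e1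

theorem card_inf_mul [Finite A] {p : ℕ} (hp : p.Prime) (M : AddSubgroup A) (hM : M.index = p)
    (K : AddSubgroup A) [Decidable (K ≤ M)] :
    p * Nat.card ↥(K ⊓ M) = Nat.card K + (if K ≤ M then (p - 1) * Nat.card K else 0) := by
  by_cases hK : K ≤ M
  · rw [if_pos hK, inf_eq_left.2 hK]
    obtain ⟨k, rfl⟩ : ∃ k, p = k + 1 := ⟨p - 1, (Nat.succ_pred_eq_of_pos hp.pos).symm⟩
    rw [Nat.add_sub_cancel]
    ring
  · rw [if_neg hK, add_zero]
    have htop : K ⊔ M = ⊤ := by
      have h1 := AddSubgroup.relIndex_mul_index (le_sup_right : M ≤ K ⊔ M)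
      rw [hM] at h1
      have h2 : (K ⊔ M).index ∣ p := Dvd.intro_left _ h1
      rcases (Nat.dvd_prime hp).1 h2 with h3 | h3
      · exact AddSubgroup.index_eq_one.1 h3
      · exfalso
        rw [h3] at h1
        have h4 : M.relIndex (K ⊔ M) = 1 := by
          have := Nat.eq_of_mul_eq_mul_right hp.pos (h1.trans (one_mul p).symm)
          exact this
        rw [AddSubgroup.relIndex_eq_one] at h4
        exact hK (le_sup_left.trans h4)
    have h5 : M.relIndex K = p := by
      rw [← AddSubgroup.relIndex_sup_right K M, htop, AddSubgroup.relIndex_top_right, hM]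
    have h6 := card_mul_relIndex' (inf_le_left : K ⊓ M ≤ K)
    rw [AddSubgroup.inf_relIndex_left, h5] at h6
    rw [mul_comm]
    exact h6

theorem St_apply (T : Act A Ω) (a : A) (ω : Ω) : T.St (T.τ a ω) = T.St ω := by
  ext b
  rw [T.mem_St, T.mem_St, ← Equiv.Perm.mul_apply, ← T.add, add_comm, T.add, Equiv.Perm.mul_apply,
    (T.τ a).apply_eq_iff_eq]

open Classical in
/-- the orbit of a point. -/
noncomputable def orb [Fintype Ω] (T : Act A Ω) (ω : Ω) : Finset Ω :=
  Finset.univ.filter (fun x => ∃ a, T.τ a ω = x)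

theorem mem_orb [Fintype Ω] (T : Act A Ω) {ω x : Ω} : x ∈ orb T ω ↔ ∃ a, T.τ a ω = x := by
  classical
  simp [orb]

theorem sum_orb [Finite A] [Fintype Ω] (T : Act A Ω) (ω : Ω) :
    ∑ x ∈ orb T ω, Nat.card (T.St x) = Nat.card A := by
  classical
  haveI : Fintype A := Fintype.ofFinite A
  have h1 := Finset.card_eq_sum_card_fiberwise (f := fun a => T.τ a ω) (s := (Finset.univ : Finset A))
    (t := orb T ω) (fun a _ => (mem_orb T).2 ⟨a, rfl⟩)
  rw [Nat.card_eq_fintype_card, ← Finset.card_univ, h1]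
  apply Finset.sum_congr rfl
  intro x hx
  obtain ⟨a0, ha0⟩ := (mem_orb T).1 hx
  rw [Nat.card_eq_fintype_card, Fintype.card_subtype]
  apply Finset.card_equiv (Equiv.addRight a0)
  intro b
  simp only [Finset.mem_filter, Finset.mem_univ, true_and, Equiv.coe_addRight]
  rw [T.mem_St, T.add, Equiv.Perm.mul_apply, ha0]

theorem A3 {A Ω : Type*} [AddCommGroup A] [Finite A] [Fintype Ω] (T : Act A Ω) {p : ℕ} (hp : p.Prime) (φ0 : ℕ)
    (hfix : ∀ a : A, a ≠ 0 → Nat.card {ω : Ω // T.τ a ω = ω} = φ0)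
    (hd : Fintype.card Ω = φ0 + Nat.card A) (M : AddSubgroup A) (hM : M.index = p)
    {ω ω' : Ω} (h : T.St ω ≤ M) (h' : T.St ω' ≤ M) : ∃ a, T.τ a ω = ω' := by
  classical
  -- the key sum
  have hA := A1 T φ0 hfix
  have hMs := A1 (restr T M) φ0 (fun m hm => hfix m (fun e => hm (Subtype.ext e)))
  simp_rw [card_St_restr] at hMs
  have hsum : p * ∑ x, Nat.card ↥(T.St x ⊓ M) = ∑ x, Nat.card (T.St x) +
      (p - 1) * ∑ x ∈ Finset.univ.filter (fun x => T.St x ≤ M), Nat.card (T.St x) := by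
    rw [Finset.mul_sum, Finset.mul_sum, Finset.sum_filter, ← Finset.sum_add_distrib]
    apply Finset.sum_congr rfl
    intro x _
    rw [card_inf_mul hp M hM (T.St x)]
  have hcard : Nat.card M * p = Nat.card A := by rw [← hM]; exact M.card_mul_index
  have key : ∑ x ∈ Finset.univ.filter (fun x => T.St x ≤ M), Nat.card (T.St x) = Nat.card A := by
    set sX := ∑ x ∈ Finset.univ.filter (fun x => T.St x ≤ M), Nat.card (T.St x) with hsX
    rw [hA, hMs, hd, ← hcard] at hsum
    obtain ⟨k, rfl⟩ : ∃ k, p = k + 1 := ⟨p - 1, (Nat.succ_pred_eq_of_pos hp.pos).symm⟩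
    obtain ⟨j, hj⟩ : ∃ j, Nat.card M = j + 1 :=
      ⟨Nat.card M - 1, (Nat.succ_pred_eq_of_pos Nat.card_pos).symm⟩
    have hk : 0 < k := by
      have := hp.one_lt
      omega
    rw [← hcard, hj]
    rw [hj] at hsum
    have e1 : (j + 1) * (k + 1) - 1 = j * k + j + k := by
      apply Nat.sub_eq_of_eq_add
      ring
    rw [e1, Nat.add_sub_cancel, Nat.add_sub_cancel] at hsum
    have : k * sX = k * ((j + 1) * (k + 1)) := by nlinarith [hsum]
    exact Nat.eq_of_mul_eq_mul_left hk this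
  by_contra hno
  have hsub : ∀ y : Ω, T.St y ≤ M → orb T y ⊆ Finset.univ.filter (fun x => T.St x ≤ M) := by
    intro y hy x hx
    obtain ⟨a, rfl⟩ := (mem_orb T).1 hx
    simp only [Finset.mem_filter, Finset.mem_univ, true_and]
    rw [St_apply]
    exact hy
  have hdisj : Disjoint (orb T ω) (orb T ω') := by
    rw [Finset.disjoint_left]
    intro x hx hx'
    obtain ⟨a, ha⟩ := (mem_orb T).1 hx
    obtain ⟨b, hb⟩ := (mem_orb T).1 hx'
    apply hno
    refine ⟨-b + a, ?_⟩
    rw [T.add, Equiv.Perm.mul_apply, ha, ← hb, T.neg]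
    simp
  have h2 := Finset.sum_le_sum_of_subset (f := fun x => Nat.card (T.St x))
    (Finset.union_subset (hsub ω h) (hsub ω' h'))
  rw [Finset.sum_union hdisj, sum_orb, sum_orb, key] at h2
  have : 0 < Nat.card A := Nat.card_pos
  omega

end Cfsg.Agent.Lib.Helper58.MinIdx
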