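import Mathlib
import Cfsg.Prelude.Def_Characters
import Cfsg.Prelude.Def_Perm
import Cfsg.Agent.Lib.Helper58.MultFree

set_option autoImplicit false
set_option linter.unusedSectionVars false

/-!
# The permutation representation, commutativity of the centraliser algebra
-/

namespace Cfsg.Agent.Lib.Helper58

open Module Representation Cfsg Cfsg.Agent.Lib.Helper3
open scoped ComplexConjugate

section general

variable {G : Type*} [Group G] [Fintype G] {V : Type*} [AddCommGroup V] [Module ℂ V]
  [FiniteDimensional ℂ V]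

theorem mem_invariants_linHom_iff (ρ : Representation ℂ G V) (S : V →ₗ[ℂ] V) :
    S ∈ (ρ.linHom ρ).invariants ↔ ∀ g, S ∘ₗ ρ g = ρ g ∘ₗ S := by
  rw [Representation.mem_invariants]
  refine forall_congr' fun g => ?_
  rw [linHom_apply]
  constructor
  · intro h
    nth_rw 1 [← h]
    rw [LinearMap.comp_assoc, LinearMap.comp_assoc, ← Module.End.mul_eq_comp (ρ g⁻¹), ← map_mul,
      inv_mul_cancel, map_one, Module.End.one_eq_id, LinearMap.comp_id]
  · intro h
    rw [← LinearMap.comp_assoc, ← h, LinearMap.comp_assoc, ← Module.End.mul_eq_comp (ρ g),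
      ← map_mul, mul_inv_cancel, map_one, Module.End.one_eq_id, LinearMap.comp_id]

/-- In a multiplicity free representation the commuting algebra is commutative. -/
theorem comm_of_multFree (ρ : Representation ℂ G V)
    (hmf : ∀ χ : G → ℂ, IsIrrCharacter G χ → classInner ρ.character χ = 0 ∨
      classInner ρ.character χ = 1)
    (S T : V →ₗ[ℂ] V) (hS : ∀ g, S ∘ₗ ρ g = ρ g ∘ₗ S) (hT : ∀ g, T ∘ₗ ρ g = ρ g ∘ₗ T) :
    S ∘ₗ T = T ∘ₗ S := by
  apply ext_on_irr ρ
  intro p hp hirr v hv
  have h1 : classInner ρ.character (subrep ρ p hp).character = 1 :=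
    (hmf _ (isIrrCharacter_of_rep _ hirr)).resolve_left (classInner_sub_ne_zero ρ p hp hirr)
  obtain ⟨c, hc⟩ := exists_scalar_of_mult_one ρ p hp hirr h1 S hS
  obtain ⟨d, hd⟩ := exists_scalar_of_mult_one ρ p hp hirr h1 T hT
  simp only [LinearMap.comp_apply]
  rw [hd v hv, hc v hv, map_smul, map_smul, hd v hv, hc v hv, smul_comm]

/-- An equivariant left inverse of an injective intertwiner (Maschke by averaging). -/
theorem exists_equivariant_leftInverse {U : Type*} [AddCommGroup U] [Module ℂ U]
    (σ : Representation ℂ G U) (ρ : Representation ℂ G V) (α : U →ₗ[ℂ] V)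
    (hα : ∀ g, α ∘ₗ σ g = ρ g ∘ₗ α) (hinj : Function.Injective α) :
    ∃ α' : V →ₗ[ℂ] U, (∀ g, α' ∘ₗ ρ g = σ g ∘ₗ α') ∧ α' ∘ₗ α = LinearMap.id := by
  have hc0 : (Nat.card G : ℂ) ≠ 0 := by exact_mod_cast Nat.card_pos.ne'
  obtain ⟨γ, hγ⟩ := LinearMap.exists_leftInverse_of_injective α (LinearMap.ker_eq_bot.mpr hinj)
  refine ⟨(Nat.card G : ℂ)⁻¹ • ∑ g : G, σ g⁻¹ ∘ₗ γ ∘ₗ ρ g, fun h => ?_, ?_⟩
  · rw [LinearMap.smul_comp, LinearMap.comp_smul]
    congr 1
    ext v
    simp only [LinearMap.comp_apply, LinearMap.sum_apply, map_sum]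
    refine Fintype.sum_equiv (Equiv.mulRight h) _ _ fun g => ?_
    simp only [Equiv.coe_mulRight, mul_inv_rev, map_mul, Module.End.mul_apply]
    rw [← Module.End.mul_apply (σ h), ← map_mul, mul_inv_cancel, map_one, Module.End.one_apply]
  · ext u
    simp only [LinearMap.comp_apply, LinearMap.smul_apply, LinearMap.sum_apply, LinearMap.id_apply]
    have : ∀ g : G, σ g⁻¹ (γ (ρ g (α u))) = u := by
      intro g
      have h1 : ρ g (α u) = α (σ g u) := (LinearMap.congr_fun (hα g) u).symm
      have h2 : γ (α (σ g u)) = σ g u := LinearMap.congr_fun hγ (σ g u)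
      rw [h1, h2, ← Module.End.mul_apply, ← map_mul, inv_mul_cancel, map_one,
        Module.End.one_apply]
    simp only [this, Finset.sum_const, Finset.card_univ, ← Nat.card_eq_fintype_card]
    rw [← Nat.cast_smul_eq_nsmul ℂ, smul_smul, inv_mul_cancel₀ hc0, one_smul]

/-- If the commuting algebra is commutative, the representation is multiplicity free. -/
theorem multFree_of_comm (ρ : Representation ℂ G V)
    (hcomm : ∀ S T : V →ₗ[ℂ] V, (∀ g, S ∘ₗ ρ g = ρ g ∘ₗ S) → (∀ g, T ∘ₗ ρ g = ρ g ∘ₗ T) →
      S ∘ₗ T = T ∘ₗ S) {χ : G → ℂ} (hχ : IsIrrCharacter G χ) :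
    classInner ρ.character χ = 0 ∨ classInner ρ.character χ = 1 := by
  obtain ⟨n, σ, hirr, rfl⟩ := hχ
  rw [classInner_char_eq_finrank σ ρ]
  have hle : finrank ℂ (IntertwiningMap σ ρ) ≤ 1 := by
    by_cases h0 : ∀ α : IntertwiningMap σ ρ, α = 0
    · have : Subsingleton (IntertwiningMap σ ρ) := ⟨fun a b => by rw [h0 a, h0 b]⟩
      rw [finrank_zero_of_subsingleton]
      exact Nat.zero_le 1
    · push Not at h0
      obtain ⟨α, hα0⟩ := h0
      have hinj : Function.Injective α.toLinearMap := by
        rw [← LinearMap.ker_eq_bot]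
        have hinv : Inv σ (LinearMap.ker α.toLinearMap) := by
          intro g v hv
          rw [Submodule.mem_comap, LinearMap.mem_ker]
          have := LinearMap.congr_fun (α.isIntertwining' g) v
          simp only [LinearMap.comp_apply] at this
          rw [this, LinearMap.mem_ker.mp hv, map_zero]
        rcases ((isIrreducible_iff σ).mp hirr).2 _ hinv with h | h
        · exact h
        · exfalso
          apply hα0
          apply IntertwiningMap.ext
          exact LinearMap.ker_eq_top.mp h
      obtain ⟨α', hα', hid⟩ := exists_equivariant_leftInverse σ ρ α.toLinearMap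
        α.isIntertwining' hinj
      refine finrank_le_one α fun β => ?_
      obtain ⟨c, hc⟩ := schur_scalar σ (α' ∘ₗ β.toLinearMap) (fun g => by
        rw [LinearMap.comp_assoc, β.isIntertwining' g, ← LinearMap.comp_assoc, hα' g,
          LinearMap.comp_assoc])
      refine ⟨c, ?_⟩
      have h1 := hcomm (β.toLinearMap ∘ₗ α') (α.toLinearMap ∘ₗ α')
        (fun g => by
          rw [LinearMap.comp_assoc, hα' g, ← LinearMap.comp_assoc, β.isIntertwining' g,
            LinearMap.comp_assoc])
        (fun g => by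
          rw [LinearMap.comp_assoc, hα' g, ← LinearMap.comp_assoc, α.isIntertwining' g,
            LinearMap.comp_assoc])
      apply IntertwiningMap.ext
      refine LinearMap.ext fun u => ?_
      have h2 := LinearMap.congr_fun h1 (α.toLinearMap u)
      have h3 : ∀ w, α' (α.toLinearMap w) = w := fun w => LinearMap.congr_fun hid w
      have h4 : ∀ w, α' (β.toLinearMap w) = c • w := fun w => LinearMap.congr_fun hc w
      simp only [LinearMap.comp_apply, h3, h4, map_smul] at h2
      rw [h2]
      rfl
  interval_cases h : finrank ℂ (IntertwiningMap σ ρ)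
  · left; simp
  · right; simp

end general

section perm

variable {G : Type*} [Group G] {Ω : Type*} [Fintype Ω] [MulAction G Ω]

theorem permRep_apply (g : G) (f : Ω → ℂ) (x : Ω) : permRep ℂ G Ω g f x = f (g⁻¹ • x) := rfl

theorem char_permRep :
    (permRep ℂ G Ω).character = fun g => (Nat.card (MulAction.fixedBy Ω g) : ℂ) := by
  classical
  ext g
  rw [Representation.character, LinearMap.trace_eq_matrix_trace ℂ (Pi.basisFun ℂ Ω),
    Matrix.trace]
  have : ∀ x : Ω, (LinearMap.toMatrix (Pi.basisFun ℂ Ω) (Pi.basisFun ℂ Ω)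
      (permRep ℂ G Ω g)).diag x = if g • x = x then 1 else 0 := by
    intro x
    simp only [Matrix.diag_apply, LinearMap.toMatrix_apply, Pi.basisFun_apply, Pi.basisFun_repr,
      permRep_apply, Pi.single_apply, inv_smul_eq_iff]
    simp only [eq_comm]
  simp only [this]
  rw [Finset.sum_boole, Nat.card_eq_fintype_card, Fintype.card_subtype]
  rfl

end perm

end Cfsg.Agent.Lib.Helper58
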