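import Mathlib
import Cfsg.Prelude.Def_Characters
import Cfsg.Prelude.Def_Perm
import Cfsg.Agent.Lib.Helper58.PermRep

set_option autoImplicit false
set_option linter.unusedSectionVars false

/-!
# Matrices commuting with the permutation representation, transposition, orbital matrices
-/

namespace Cfsg.Agent.Lib.Helper58

open Module Representation Cfsg Cfsg.Agent.Lib.Helper3
open scoped ComplexConjugate

section perm

variable {G : Type*} [Group G] {Ω : Type*} [Fintype Ω] [DecidableEq Ω] [MulAction G Ω]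

/-- transposition of operators on `Ω → ℂ` -/
noncomputable def tr (T : (Ω → ℂ) →ₗ[ℂ] (Ω → ℂ)) : (Ω → ℂ) →ₗ[ℂ] (Ω → ℂ) :=
  Matrix.toLin' (LinearMap.toMatrix' T).transpose

theorem tr_comp (S T : (Ω → ℂ) →ₗ[ℂ] (Ω → ℂ)) : tr (S ∘ₗ T) = tr T ∘ₗ tr S := by
  rw [tr, tr, tr, LinearMap.toMatrix'_comp, Matrix.transpose_mul, Matrix.toLin'_mul]

theorem tr_smul (c : ℂ) (T : (Ω → ℂ) →ₗ[ℂ] (Ω → ℂ)) : tr (c • T) = c • tr T := by
  rw [tr, tr, map_smul, Matrix.transpose_smul, map_smul]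

theorem tr_add (S T : (Ω → ℂ) →ₗ[ℂ] (Ω → ℂ)) : tr (S + T) = tr S + tr T := by
  rw [tr, tr, tr, map_add, Matrix.transpose_add, map_add]

theorem tr_sum {ι : Type*} (s : Finset ι) (T : ι → (Ω → ℂ) →ₗ[ℂ] (Ω → ℂ)) :
    tr (∑ i ∈ s, T i) = ∑ i ∈ s, tr (T i) := by
  simp only [tr, map_sum, Matrix.transpose_sum]

theorem tr_toLin' (M : Matrix Ω Ω ℂ) : tr (Matrix.toLin' M) = Matrix.toLin' M.transpose := by
  rw [tr, LinearMap.toMatrix'_toLin']

theorem tr_eq_self_iff (T : (Ω → ℂ) →ₗ[ℂ] (Ω → ℂ)) :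
    tr T = T ↔ ∀ x y, LinearMap.toMatrix' T x y = LinearMap.toMatrix' T y x := by
  constructor
  · intro h x y
    have h1 := congrArg LinearMap.toMatrix' h
    rw [tr, LinearMap.toMatrix'_toLin'] at h1
    exact (congrFun (congrFun h1 y) x)
  · intro h
    have h1 : (LinearMap.toMatrix' T).transpose = LinearMap.toMatrix' T := by
      ext x y
      exact h y x
    rw [tr, h1, Matrix.toLin'_toMatrix']

theorem toMatrix'_permRep (g : G) (x y : Ω) :
    LinearMap.toMatrix' (permRep ℂ G Ω g) x y = if x = g • y then 1 else 0 := by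
  rw [LinearMap.toMatrix'_apply, permRep_apply, Pi.single_apply]
  simp only [inv_smul_eq_iff]

theorem tr_permRep (g : G) : tr (permRep ℂ G Ω g) = permRep ℂ G Ω g⁻¹ := by
  apply LinearMap.toMatrix'.injective
  rw [tr, LinearMap.toMatrix'_toLin']
  ext x y
  rw [Matrix.transpose_apply, toMatrix'_permRep, toMatrix'_permRep]
  simp only [eq_inv_smul_iff, eq_comm]

/-- The matrix of an operator commuting with the permutation representation is constant on
orbitals. -/
theorem toMatrix'_smul_smul (T : (Ω → ℂ) →ₗ[ℂ] (Ω → ℂ))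
    (hT : ∀ g, T ∘ₗ permRep ℂ G Ω g = permRep ℂ G Ω g ∘ₗ T) (g : G) (x y : Ω) :
    LinearMap.toMatrix' T (g • x) (g • y) = LinearMap.toMatrix' T x y := by
  rw [LinearMap.toMatrix'_apply, LinearMap.toMatrix'_apply]
  have h1 := congrFun (LinearMap.congr_fun (hT g⁻¹) (Pi.single (g • y) 1)) x
  simp only [LinearMap.comp_apply, permRep_apply, inv_inv] at h1
  rw [← h1]
  have h2 : permRep ℂ G Ω g⁻¹ (Pi.single (g • y) 1) = Pi.single y 1 := by
    ext z
    rw [permRep_apply, inv_inv, Pi.single_apply, Pi.single_apply]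
    simp only [smul_left_cancel_iff]
  rw [h2]

/-- A matrix constant on orbitals commutes with the permutation representation. -/
theorem toLin'_comm (M : Matrix Ω Ω ℂ) (hM : ∀ (g : G) x y, M (g • x) (g • y) = M x y) (g : G) :
    Matrix.toLin' M ∘ₗ permRep ℂ G Ω g = permRep ℂ G Ω g ∘ₗ Matrix.toLin' M := by
  ext f x
  simp only [LinearMap.comp_apply, permRep_apply, Matrix.toLin'_apply, Matrix.mulVec,
    dotProduct]
  refine Fintype.sum_equiv (MulAction.toPerm g⁻¹) _ _ fun y => ?_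
  simp only [MulAction.toPerm_apply]
  rw [hM]

theorem tr_comm (T : (Ω → ℂ) →ₗ[ℂ] (Ω → ℂ))
    (hT : ∀ g, T ∘ₗ permRep ℂ G Ω g = permRep ℂ G Ω g ∘ₗ T) (g : G) :
    tr T ∘ₗ permRep ℂ G Ω g = permRep ℂ G Ω g ∘ₗ tr T := by
  have h1 : permRep ℂ G Ω g = tr (permRep ℂ G Ω g⁻¹) := by rw [tr_permRep, inv_inv]
  rw [h1, ← tr_comp, ← tr_comp, hT]

variable [Fintype G]

theorem tr_opOf (f : G → ℂ) :
    tr (opOf f (permRep ℂ G Ω)) = opOf (fun g => f g⁻¹) (permRep ℂ G Ω) := by
  rw [opOf, opOf, tr_sum]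
  refine Fintype.sum_equiv (Equiv.inv G) _ _ fun g => ?_
  rw [tr_smul, tr_permRep]
  simp

theorem tr_isoProj (f : G → ℂ) :
    tr (isoProj f (permRep ℂ G Ω)) = isoProj (fun g => f g⁻¹) (permRep ℂ G Ω) := by
  rw [isoProj, isoProj, tr_smul, tr_opOf, inv_one]

/-- In a multiplicity free permutation representation with real constituents all commuting
operators are symmetric. -/
theorem tr_eq_self_of_multFree_real
    (h : ∀ χ : G → ℂ, IsIrrCharacter G χ → classInner (permRep ℂ G Ω).character χ ≠ 0 →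
      classInner (permRep ℂ G Ω).character χ = 1 ∧ ∀ g : G, (starRingEnd ℂ) (χ g) = χ g)
    (T : (Ω → ℂ) →ₗ[ℂ] (Ω → ℂ))
    (hT : ∀ g, T ∘ₗ permRep ℂ G Ω g = permRep ℂ G Ω g ∘ₗ T) : tr T = T := by
  set ρ := permRep ℂ G Ω with hρ
  apply ext_on_irr ρ
  intro p hp hirr v hv
  have hχ := isIrrCharacter_of_rep _ hirr
  obtain ⟨h1, hreal⟩ := h _ hχ (classInner_sub_ne_zero ρ p hp hirr)
  set χ := (subrep ρ p hp).character with hχdef
  obtain ⟨c, hc⟩ := exists_scalar_of_mult_one ρ p hp hirr h1 T hT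
  have hE : tr (isoProj χ ρ) = isoProj χ ρ := by
    rw [tr_isoProj]
    congr 1
    ext g
    rw [IsCharacter.apply_inv (IsIrrCharacter.isCharacter hχ), hreal]
  have hTE : T ∘ₗ isoProj χ ρ = c • isoProj χ ρ := by
    apply ext_on_irr ρ
    intro p' hp' hirr' w hw
    rw [LinearMap.comp_apply, LinearMap.smul_apply]
    by_cases hc' : (subrep ρ p' hp').character = χ
    · have hpp : p' = p := eq_of_char_eq_of_mult_one ρ p hp hirr h1 p' hp' hirr' hc'
      rw [isoProj_apply_eq hχ ρ p' hp' hirr' hc' hw]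
      exact hc w (hpp ▸ hw)
    · rw [isoProj_apply_ne hχ ρ p' hp' hirr' hc' hw, map_zero, smul_zero]
  have h2 : tr T ∘ₗ isoProj χ ρ = c • isoProj χ ρ := by
    rw [isoProj_comm_of_comm χ ρ (tr T) (tr_comm T hT)]
    nth_rw 1 [← hE]
    rw [← tr_comp, hTE, tr_smul, hE]
  have h3 := LinearMap.congr_fun h2 v
  rw [LinearMap.comp_apply, LinearMap.smul_apply, isoProj_apply_eq hχ ρ p hp hirr rfl hv] at h3
  rw [h3, hc v hv]

end perm

end Cfsg.Agent.Lib.Helper58
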