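import Mathlib
import Cfsg.Prelude.Def_Characters
import Cfsg.Prelude.Def_Perm
import Cfsg.Agent.Lib.Helper58.Orbital
import Cfsg.Agent.Lib.Helper58.GenEig

set_option autoImplicit false
set_option linter.unusedSectionVars false

/-!
# Orbital matrices
-/

namespace Cfsg.Agent.Lib.Helper58

open Module Representation Cfsg Cfsg.Agent.Lib.Helper3
open scoped ComplexConjugate

section orb

variable (G : Type*) [Group G] {Ω : Type*} [MulAction G Ω]

open scoped Classical in
/-- The orbital matrix of the orbital containing `(a, b)`. -/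
noncomputable def orbMat (R : Type*) [Zero R] [One R] (a b : Ω) : Matrix Ω Ω R :=
  fun x y => if ∃ g : G, g • a = x ∧ g • b = y then 1 else 0

theorem orbMat_smul_smul (R : Type*) [Zero R] [One R] (a b : Ω) (g : G) (x y : Ω) :
    orbMat G R a b (g • x) (g • y) = orbMat G R a b x y := by
  simp only [orbMat]
  congr 1
  apply propext
  constructor
  · rintro ⟨k, h1, h2⟩
    exact ⟨g⁻¹ * k, by rw [mul_smul, h1, inv_smul_smul], by rw [mul_smul, h2, inv_smul_smul]⟩
  · rintro ⟨k, h1, h2⟩
    exact ⟨g * k, by rw [mul_smul, h1], by rw [mul_smul, h2]⟩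

theorem orbMat_self (R : Type*) [Zero R] [One R] (a b : Ω) : orbMat G R a b a b = 1 := by
  simp only [orbMat]
  rw [if_pos ⟨1, one_smul _ _, one_smul _ _⟩]

theorem orbMat_diag (R : Type*) [Zero R] [One R] {a b : Ω} (hab : b ≠ a) (x : Ω) :
    orbMat G R a b x x = 0 := by
  simp only [orbMat]
  rw [if_neg]
  rintro ⟨g, h1, h2⟩
  exact hab (smul_left_cancel g (h2.trans h1.symm))

theorem orbMat_map (a b : Ω) :
    orbMat G ℂ a b = (orbMat G ℤ a b).map (Int.castRingHom ℂ) := by
  ext x y
  simp only [orbMat, Matrix.map_apply]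
  split_ifs <;> simp

variable [Fintype Ω]

theorem orbMat_row_sum [MulAction.IsPretransitive G Ω] (a b x : Ω) :
    ∑ y, orbMat G ℂ a b x y = (Nat.card (MulAction.orbit (MulAction.stabilizer G a) b) : ℂ) := by
  classical
  obtain ⟨h, rfl⟩ := MulAction.exists_smul_eq G a x
  simp only [orbMat]
  rw [Finset.sum_boole, ← Fintype.card_subtype, ← Nat.card_eq_fintype_card]
  congr 1
  symm
  refine Nat.card_congr (Equiv.subtypeEquiv (MulAction.toPerm h) fun z => ?_)
  rw [MulAction.mem_orbit_iff, MulAction.toPerm_apply]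
  constructor
  · rintro ⟨s, rfl⟩
    refine ⟨h * s, ?_, ?_⟩
    · rw [mul_smul]
      congr 1
      exact s.2
    · rw [mul_smul]
      rfl
  · rintro ⟨g, h1, h2⟩
    refine ⟨⟨h⁻¹ * g, ?_⟩, ?_⟩
    · rw [MulAction.mem_stabilizer_iff, mul_smul, h1, inv_smul_smul]
    · change (h⁻¹ * g) • b = z
      rw [mul_smul, h2, inv_smul_smul]

variable [DecidableEq Ω]

theorem toLin'_orbMat_one [MulAction.IsPretransitive G Ω] (a b : Ω) :
    Matrix.toLin' (orbMat G ℂ a b) (fun _ => 1) =
      (Nat.card (MulAction.orbit (MulAction.stabilizer G a) b) : ℂ) • (fun _ => (1 : ℂ)) := by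
  ext x
  simp only [Matrix.toLin'_apply, Matrix.mulVec, dotProduct, mul_one, Pi.smul_apply, smul_eq_mul]
  exact orbMat_row_sum G a b x

theorem trace_toLin'_orbMat {a b : Ω} (hab : b ≠ a) :
    LinearMap.trace ℂ _ (Matrix.toLin' (orbMat G ℂ a b)) = 0 := by
  rw [Matrix.trace_toLin'_eq, Matrix.trace]
  simp only [Matrix.diag_apply, orbMat_diag G ℂ hab, Finset.sum_const_zero]

theorem isIntegral_toLin'_orbMat (a b : Ω) : IsIntegral ℤ (Matrix.toLin' (orbMat G ℂ a b)) := by
  have h1 : IsIntegral ℤ (orbMat G ℤ a b) := Matrix.isIntegral _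
  have h2 := map_isIntegral_int (Int.castRingHom ℂ).mapMatrix h1
  have h3 := map_isIntegral_int (Matrix.toLinAlgEquiv' (R := ℂ) (n := Ω)) h2
  rw [orbMat_map]
  exact h3

end orb

end Cfsg.Agent.Lib.Helper58
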