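import Mathlib
import Cfsg.Prelude.Def_Balance

/-!
# Complements in elementary abelian groups (piece C of helper47's S1299 farm)
-/

set_option autoImplicit false

namespace Cfsg.Agent.Lib.Helper58.Sig

open Subgroup Cfsg

theorem exists_mul_of_mem_sup_comm {G : Type*} [Group G] {H K : Subgroup G}
    (h : ∀ x ∈ H, ∀ y ∈ K, x * y = y * x) {g : G} (hg : g ∈ H ⊔ K) :
    ∃ x ∈ H, ∃ y ∈ K, g = x * y := by
  let M : Subgroup G :=
    { carrier := {g | ∃ x ∈ H, ∃ y ∈ K, g = x * y}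
      mul_mem' := by
        rintro _ _ ⟨x, hx, y, hy, rfl⟩ ⟨x', hx', y', hy', rfl⟩
        refine ⟨x * x', mul_mem hx hx', y * y', mul_mem hy hy', ?_⟩
        calc x * y * (x' * y') = x * (y * x') * y' := by group
          _ = x * (x' * y) * y' := by rw [h x' hx' y hy]
          _ = x * x' * (y * y') := by group
      one_mem' := ⟨1, one_mem _, 1, one_mem _, by simp⟩
      inv_mem' := by
        rintro _ ⟨x, hx, y, hy, rfl⟩
        refine ⟨x⁻¹, inv_mem hx, y⁻¹, inv_mem hy, ?_⟩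
        rw [h x hx y hy, mul_inv_rev] }
  have hM : H ⊔ K ≤ M := by
    refine sup_le ?_ ?_
    · intro x hx
      exact ⟨x, hx, 1, one_mem _, by simp⟩
    · intro y hy
      exact ⟨1, one_mem _, y, hy, by simp⟩
  exact hM hg

theorem exists_complement_elemAb {G : Type*} [Group G] [Finite G] (p : ℕ) [Fact p.Prime]
    (A B : Subgroup G) (hA : IsElementaryAbelian p A) (hB : B ≤ A) :
    ∃ A₁ : Subgroup G, A₁ ≤ A ∧ B ⊓ A₁ = ⊥ ∧ B ⊔ A₁ = A ∧
      Nat.card ↥B * Nat.card ↥A₁ = Nat.card ↥A := by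
  have hp : p.Prime := Fact.out
  have hcomm : ∀ x ∈ A, ∀ y ∈ A, x * y = y * x := by
    intro x hx y hy
    exact congrArg Subtype.val (hA.1.is_comm.comm ⟨x, hx⟩ ⟨y, hy⟩)
  obtain ⟨A₁, -, hmax⟩ := (Set.toFinite {C : Subgroup G | C ≤ A ∧ B ⊓ C = ⊥}).exists_le_maximal
    (a := ⊥) ⟨bot_le, by simp⟩
  obtain ⟨hA₁, hBA₁⟩ := hmax.prop
  have hsup : B ⊔ A₁ = A := by
    refine le_antisymm (sup_le hB hA₁) ?_
    intro x hx
    by_contra hxn
    have hx2 : A₁ ⊔ zpowers x ≤ A := sup_le hA₁ (by rwa [zpowers_le])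
    have hdis : B ⊓ (A₁ ⊔ zpowers x) = ⊥ := by
      rw [eq_bot_iff]
      intro b hb
      obtain ⟨hbB, hb2⟩ := mem_inf.1 hb
      obtain ⟨a, ha, y, hy, rfl⟩ := exists_mul_of_mem_sup_comm (H := A₁) (K := zpowers x)
        (fun u hu v hv => hcomm u (hA₁ hu) v ((zpowers_le.2 hx) hv)) hb2
      obtain ⟨i, rfl⟩ := mem_zpowers_iff.1 hy
      by_cases hi : (p : ℤ) ∣ i
      · obtain ⟨j, rfl⟩ := hi
        have h1 : x ^ ((p : ℤ) * j) = 1 := by
          rw [zpow_mul, zpow_natCast, hA.2 x hx, one_zpow]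
        rw [h1, mul_one] at hbB ⊢
        have : a ∈ B ⊓ A₁ := mem_inf.2 ⟨hbB, ha⟩
        rwa [hBA₁] at this
      · exfalso
        apply hxn
        have hxi : x ^ i ∈ B ⊔ A₁ := by
          have : x ^ i = a⁻¹ * (a * x ^ i) := by group
          rw [this]
          exact mul_mem (inv_mem (mem_sup_right ha)) (mem_sup_left hbB)
        have hcop : IsCoprime i (p : ℤ) := by
          rw [isCoprime_comm]
          exact (Int.prime_iff_natAbs_prime.2 (by simpa using hp)).coprime_iff_not_dvd.2 hi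
        obtain ⟨u, v, huv⟩ := hcop
        have h2 : x = (x ^ i) ^ u := by
          have h3 : x ^ (u * i + v * p) = x := by rw [huv, zpow_one]
          rw [zpow_add, mul_comm v, zpow_mul x (p : ℤ) v, zpow_natCast, hA.2 x hx, one_zpow, mul_one,
            mul_comm u, zpow_mul] at h3
          exact h3.symm
        rw [h2]
        exact zpow_mem hxi u
    have hle : A₁ ⊔ zpowers x ≤ A₁ := hmax.le_of_ge ⟨hx2, hdis⟩ le_sup_left
    exact hxn (mem_sup_right (hle (mem_sup_right (mem_zpowers x))))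
  refine ⟨A₁, hA₁, hBA₁, hsup, ?_⟩
  rw [← Nat.card_prod]
  let f : ↥B × ↥A₁ → ↥A := fun z => ⟨z.1.1 * z.2.1, mul_mem (hB z.1.2) (hA₁ z.2.2)⟩
  refine Nat.card_congr (Equiv.ofBijective f ⟨?_, ?_⟩)
  · rintro ⟨⟨b, hb⟩, ⟨a, ha⟩⟩ ⟨⟨b', hb'⟩, ⟨a', ha'⟩⟩ h
    have h1 : b * a = b' * a' := congrArg Subtype.val h
    have h2 : b'⁻¹ * b = a' * a⁻¹ := by
      calc b'⁻¹ * b = b'⁻¹ * (b * a) * a⁻¹ := by group
        _ = b'⁻¹ * (b' * a') * a⁻¹ := by rw [h1]
        _ = a' * a⁻¹ := by group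
    have h3 : b'⁻¹ * b ∈ B ⊓ A₁ :=
      mem_inf.2 ⟨mul_mem (inv_mem hb') hb, h2 ▸ mul_mem ha' (inv_mem ha)⟩
    rw [hBA₁, mem_bot] at h3
    have h4 : b = b' := (inv_mul_eq_one.1 h3).symm
    subst h4
    have h5 : a = a' := mul_left_cancel h1
    subst h5
    rfl
  · rintro ⟨x, hx⟩
    rw [← hsup] at hx
    obtain ⟨b, hb, a, ha, rfl⟩ := exists_mul_of_mem_sup_comm (H := B) (K := A₁)
      (fun u hu v hv => hcomm u (hB hu) v (hA₁ hv)) hx
    exact ⟨⟨⟨b, hb⟩, ⟨a, ha⟩⟩, rfl⟩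

end Cfsg.Agent.Lib.Helper58.Sig
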