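import Mathlib
import Cfsg.Agent.Lib.Helper22.Signalizer
import Cfsg.Agent.Lib.Helper22.Generation2
import Cfsg.Agent.S1284
import Cfsg.Agent.S1281

/-!
# Quotient transport for the single prime case (piece Q of helper47's S1299 farm)
-/

set_option autoImplicit false

namespace Cfsg.Agent.Lib.Helper58.Sig

open Subgroup Cfsg Cfsg.Agent.Lib.Helper22

/-- single prime case: a member of the family containing all `θ a` -/
theorem single_prime_family {G : Type*} [Group G] [Finite G] (p : ℕ) [Fact p.Prime]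
    (A : Subgroup G) (hA : IsElementaryAbelian p A) (hA3 : p ^ 3 ≤ Nat.card ↥A)
    (θ : G → Subgroup G) (hθ : IsSolvableSignalizerFunctor p A θ) (q : ℕ) [Fact q.Prime]
    (hq : ∀ a ∈ A, a ≠ 1 → IsPGroup q ↥(θ a)) :
    ∃ Q ∈ signalizerFamily p A θ, ∀ a ∈ A, a ≠ 1 → θ a ≤ Q := by
  obtain ⟨Q, hQ, -⟩ := exists_maxQFamily_ge (p := p) (A := A) (θ := θ) (q := q) family_bot
    (IsPGroup.of_bot)
  refine ⟨Q, hQ.1, ?_⟩
  intro a ha ha1
  obtain ⟨c, hc, hS⟩ := Cfsg.Agent.S1284.partA p A hA hA3 θ hθ q Q hQ (θ a) (family_theta hθ ha ha1)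
  have h1 : θ a = conjS c Q ⊓ θ a := hS.eq_of_le (hq a ha ha1) le_rfl inf_le_right
  have h2 : θ a ≤ conjS c Q := by
    rw [h1]; exact inf_le_left
  have hca : c ∈ θ a := signalizerInf_le ha ha1 hc
  intro x hx
  have h3 : c * x * c⁻¹ ∈ conjS c Q := h2 (mul_mem (mul_mem hca hx) (inv_mem hca))
  rw [mem_conjS] at h3
  convert h3 using 1
  group

/-- the case where `Z` is normal in `G` -/
theorem quotient_single_prime_normal {G : Type*} [Group G] [Finite G] (p : ℕ) [Fact p.Prime]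
    (A : Subgroup G) (hA : IsElementaryAbelian p A) (hA3 : p ^ 3 ≤ Nat.card ↥A)
    (θ : G → Subgroup G) (hθ : IsSolvableSignalizerFunctor p A θ)
    (Z : Subgroup G) [Z.Normal] (hZ : Z ∈ signalizerFamily p A θ)
    (s : ℕ) [Fact s.Prime] (hs : ∀ a ∈ A, a ≠ 1 → ∀ x ∈ θ a, ∃ k : ℕ, x ^ s ^ k ∈ Z) :
    ∃ W ∈ signalizerFamily p A θ, ∀ a ∈ A, a ≠ 1 → θ a ≤ W := by
  have hp : p.Prime := Fact.out
  have hA2 : p ^ 2 ≤ Nat.card ↥A :=
    le_trans (Nat.pow_le_pow_right hp.pos (by norm_num)) hA3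
  set π := QuotientGroup.mk' Z with hπ
  have hker : ∀ x : G, π x = 1 ↔ x ∈ Z := fun x => QuotientGroup.eq_one_iff x
  -- `A ∩ Z = 1`
  have hAZ : ∀ x ∈ A, x ∈ Z → x = 1 := by
    intro x hxA hxZ
    by_contra hx1
    have ho : orderOf x = p := orderOf_eq_prime (hA.2 x hxA) hx1
    apply hZ.2.1
    rw [← ho]
    have := orderOf_dvd_natCard (⟨x, hxZ⟩ : ↥Z)
    rwa [Subgroup.orderOf_mk] at this
  have hinj : ∀ x ∈ A, ∀ y ∈ A, π x = π y → x = y := by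
    intro x hx y hy h
    have h1 : π (x * y⁻¹) = 1 := by rw [map_mul, map_inv, h, mul_inv_cancel]
    have h2 := hAZ _ (mul_mem hx (inv_mem hy)) ((hker _).1 h1)
    exact mul_inv_eq_one.1 h2
  set A' := A.map π with hA'
  have hA'e : IsElementaryAbelian p A' := by
    refine ⟨⟨⟨?_⟩⟩, ?_⟩
    · rintro ⟨_, x, hx, rfl⟩ ⟨_, y, hy, rfl⟩
      apply Subtype.ext
      show π x * π y = π y * π x
      rw [← map_mul, ← map_mul, elemAb_comm hA x hx y hy]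
    · rintro _ ⟨x, hx, rfl⟩
      rw [← map_pow, hA.2 x hx, map_one]
  have hA'3 : p ^ 3 ≤ Nat.card ↥A' := by
    have h1 : Nat.card ↥A' = Nat.card ↥A := by
      have h2 : Set.InjOn π (A : Set G) := fun x hx y hy h => hinj x hx y hy h
      exact Nat.card_image_of_injOn h2
    rw [h1]; exact hA3
  let θ' : G ⧸ Z → Subgroup (G ⧸ Z) := fun g' =>
    ⨆ (a : G) (_ : a ∈ A ∧ a ≠ 1 ∧ π a = g'), (θ a).map π
  have hθ'eq : ∀ a ∈ A, a ≠ 1 → θ' (π a) = (θ a).map π := by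
    intro a ha ha1
    apply le_antisymm
    · refine iSup₂_le ?_
      rintro b ⟨hb, -, hba⟩
      rw [hinj b hb a ha hba]
    · exact le_iSup₂_of_le a ⟨ha, ha1, rfl⟩ le_rfl
  have hlift : ∀ a' ∈ A', a' ≠ 1 → ∃ a ∈ A, a ≠ 1 ∧ π a = a' := by
    rintro _ ⟨a, ha, rfl⟩ ha1
    refine ⟨a, ha, ?_, rfl⟩
    rintro rfl
    exact ha1 (map_one _)
  have hθ' : IsSolvableSignalizerFunctor p A' θ' := by
    refine ⟨⟨?_, ?_, ?_, ?_⟩, ?_⟩
    · intro a' ha' ha'1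
      obtain ⟨a, ha, ha1, rfl⟩ := hlift a' ha' ha'1
      rw [hθ'eq a ha ha1]
      rintro _ ⟨x, hx, rfl⟩
      have h1 := mem_centralizer_singleton_iff.1 (hθ.1.1 a ha ha1 hx)
      rw [mem_centralizer_singleton_iff, ← map_mul, ← map_mul, h1]
    · intro a' ha' ha'1
      obtain ⟨a, ha, ha1, rfl⟩ := hlift a' ha' ha'1
      rw [hθ'eq a ha ha1]
      intro h
      exact hθ.1.2.1 a ha ha1 (h.trans (Subgroup.card_map_dvd _ _))
    · intro a' ha' ha'1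
      obtain ⟨a, ha, ha1, rfl⟩ := hlift a' ha' ha'1
      rw [hθ'eq a ha ha1]
      rintro _ ⟨b, hb, rfl⟩ _ ⟨x, hx, rfl⟩
      exact ⟨b * x * b⁻¹, hθ.1.2.2.1 a ha ha1 b hb x hx, by simp⟩
    · intro a' ha' ha'1 b' hb' hb'1
      obtain ⟨a, ha, ha1, rfl⟩ := hlift a' ha' ha'1
      obtain ⟨b, hb, hb1, rfl⟩ := hlift b' hb' hb'1
      rw [hθ'eq a ha ha1, hθ'eq b hb hb1]
      exact Cfsg.Agent.S1281.result p A hA hA2 θ hθ Z hZ.2.1 a b ha ha1 hb hb1
    · intro a' ha' ha'1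
      obtain ⟨a, ha, ha1, rfl⟩ := hlift a' ha' ha'1
      rw [hθ'eq a ha ha1]
      have := hθ.2 a ha ha1
      exact Group.isSolvable_of_surjective (f := π.subgroupMap (θ a)) (π.subgroupMap_surjective _)
  have hs' : ∀ a' ∈ A', a' ≠ 1 → IsPGroup s ↥(θ' a') := by
    intro a' ha' ha'1
    obtain ⟨a, ha, ha1, rfl⟩ := hlift a' ha' ha'1
    rw [hθ'eq a ha ha1]
    rintro ⟨_, x, hx, rfl⟩
    obtain ⟨k, hk⟩ := hs a ha ha1 x hx
    refine ⟨k, Subtype.ext ?_⟩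
    show π x ^ s ^ k = 1
    rw [← map_pow]
    exact (hker _).2 hk
  obtain ⟨Q', hQ', hQ'θ⟩ := single_prime_family p A' hA'e hA'3 θ' hθ' s hs'
  refine ⟨Q'.comap π, ⟨?_, ?_, ?_, ?_⟩, ?_⟩
  · have := hZ.1
    have := hQ'.1
    have hZW : Z ≤ Q'.comap π := by
      intro z hz
      rw [mem_comap, (hker z).2 hz]
      exact one_mem _
    refine Group.isSolvable_of_ker_le_range (inclusion hZW) (π.subgroupComap Q') ?_
    rintro ⟨w, hw⟩ hw1
    rw [MonoidHom.mem_ker] at hw1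
    have h1 : π w = 1 := congrArg Subtype.val hw1
    exact ⟨⟨w, (hker w).1 h1⟩, rfl⟩
  · intro hdvd
    obtain ⟨⟨w, hw⟩, how⟩ := exists_prime_orderOf_dvd_card' (G := ↥(Q'.comap π)) p hdvd
    rw [Subgroup.orderOf_mk] at how
    have h1 : orderOf (π w) ∣ p := how ▸ orderOf_map_dvd π w
    have h2 : orderOf (π w) ∣ Nat.card ↥Q' := by
      have hw' : π w ∈ Q' := hw
      have := orderOf_dvd_natCard (⟨π w, hw'⟩ : ↥Q')
      rwa [Subgroup.orderOf_mk] at this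
    rcases (Nat.dvd_prime hp).1 h1 with h3 | h3
    · rw [orderOf_eq_one_iff] at h3
      apply hZ.2.1
      rw [← how]
      have := orderOf_dvd_natCard (⟨w, (hker w).1 h3⟩ : ↥Z)
      rwa [Subgroup.orderOf_mk] at this
    · exact hQ'.2.1 (h3 ▸ h2)
  · intro b hb w hw
    rw [mem_comap] at hw ⊢
    rw [map_mul, map_mul, map_inv]
    exact hQ'.2.2.1 (π b) (mem_map_of_mem _ hb) _ hw
  · intro a ha ha1 w hw
    obtain ⟨hwW, hwa⟩ := mem_inf.1 hw
    have hπa1 : π a ≠ 1 := fun h => ha1 (hAZ a ha ((hker a).1 h))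
    have h1 : π w ∈ Q' ⊓ centralizer {π a} := by
      refine mem_inf.2 ⟨hwW, ?_⟩
      rw [mem_centralizer_singleton_iff] at hwa ⊢
      rw [← map_mul, ← map_mul, hwa]
    have h2 := hQ'.2.2.2 (π a) (mem_map_of_mem _ ha) hπa1 h1
    rw [hθ'eq a ha ha1] at h2
    obtain ⟨x, hx, hxw⟩ := h2
    have hz : x⁻¹ * w ∈ Z := by
      rw [← hker, map_mul, map_inv, hxw, inv_mul_cancel]
    have hxa := hθ.1.1 a ha ha1 hx
    have hza : x⁻¹ * w ∈ Z ⊓ centralizer {a} :=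
      mem_inf.2 ⟨hz, mul_mem (inv_mem hxa) hwa⟩
    have h3 := hZ.2.2.2 a ha ha1 hza
    have : w = x * (x⁻¹ * w) := by group
    rw [this]
    exact mul_mem hx h3
  · intro a ha ha1 x hx
    rw [mem_comap]
    have hπa1 : π a ≠ 1 := fun h => ha1 (hAZ a ha ((hker a).1 h))
    apply hQ'θ (π a) (mem_map_of_mem _ ha) hπa1
    rw [hθ'eq a ha ha1]
    exact mem_map_of_mem _ hx

/-- **Piece Q.** -/
theorem quotient_single_prime {G : Type*} [Group G] [Finite G] (p : ℕ) [Fact p.Prime]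
    (A : Subgroup G) (hA : IsElementaryAbelian p A) (hA3 : p ^ 3 ≤ Nat.card ↥A)
    (θ : G → Subgroup G) (hθ : IsSolvableSignalizerFunctor p A θ)
    (Z : Subgroup G) (hZ : Z ∈ signalizerFamily p A θ)
    (hn : ∀ a ∈ A, a ≠ 1 → θ a ≤ normalizer (Z : Set G))
    (s : ℕ) [Fact s.Prime] (hs : ∀ a ∈ A, a ≠ 1 → ∀ x ∈ θ a, ∃ k : ℕ, x ^ s ^ k ∈ Z) :
    ∃ W ∈ signalizerFamily p A θ, ∀ a ∈ A, a ≠ 1 → θ a ≤ W := by
  set N := normalizer (Z : Set G) with hN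
  have hAN : A ≤ N := family_le_normalizer hZ
  have hZN : Z ≤ N := le_normalizer
  have hZnorm : (Z.subgroupOf N).Normal := normal_in_normalizer
  let θN : ↥N → Subgroup ↥N := fun a => (θ a.1).subgroupOf N
  have hne : ∀ a : ↥N, a ≠ 1 → a.1 ≠ 1 := fun a h h1 => h (Subtype.ext h1)
  have hcent : ∀ (a x : ↥N), x ∈ centralizer {a} ↔ x.1 ∈ centralizer {a.1} := by
    intro a x
    rw [mem_centralizer_singleton_iff, mem_centralizer_singleton_iff]
    constructor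
    · intro h
      exact congrArg Subtype.val h
    · intro h
      exact Subtype.ext h
  have hAe : IsElementaryAbelian p (A.subgroupOf N) := by
    refine ⟨⟨⟨?_⟩⟩, ?_⟩
    · rintro ⟨x, hx⟩ ⟨y, hy⟩
      apply Subtype.ext
      apply Subtype.ext
      exact elemAb_comm hA x.1 hx y.1 hy
    · intro x hx
      apply Subtype.ext
      exact hA.2 x.1 hx
  have hA3' : p ^ 3 ≤ Nat.card ↥(A.subgroupOf N) := by
    rw [Nat.card_congr (subgroupOfEquivOfLe hAN).toEquiv]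
    exact hA3
  have hθN : IsSolvableSignalizerFunctor p (A.subgroupOf N) θN := by
    refine ⟨⟨?_, ?_, ?_, ?_⟩, ?_⟩
    · intro a ha ha1 x hx
      rw [hcent]
      exact hθ.1.1 a.1 ha (hne a ha1) hx
    · intro a ha ha1
      rw [Nat.card_congr (subgroupOfEquivOfLe (hn a.1 ha (hne a ha1))).toEquiv]
      exact hθ.1.2.1 a.1 ha (hne a ha1)
    · intro a ha ha1 b hb x hx
      exact hθ.1.2.2.1 a.1 ha (hne a ha1) b.1 hb x.1 hx
    · intro a ha ha1 b hb hb1 x hx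
      obtain ⟨hx1, hx2⟩ := mem_inf.1 hx
      exact hθ.1.2.2.2 a.1 ha (hne a ha1) b.1 hb (hne b hb1) (mem_inf.2 ⟨hx1, (hcent b x).1 hx2⟩)
    · intro a ha ha1
      have := hθ.2 a.1 ha (hne a ha1)
      exact Group.isSolvable_of_isSolvable_injective
        (f := (subgroupOfEquivOfLe (hn a.1 ha (hne a ha1))).toMonoidHom)
        (subgroupOfEquivOfLe (hn a.1 ha (hne a ha1))).injective
  have hZF : Z.subgroupOf N ∈ signalizerFamily p (A.subgroupOf N) θN := by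
    refine ⟨?_, ?_, ?_, ?_⟩
    · have := hZ.1
      exact Group.isSolvable_of_isSolvable_injective
        (f := (subgroupOfEquivOfLe hZN).toMonoidHom) (subgroupOfEquivOfLe hZN).injective
    · rw [Nat.card_congr (subgroupOfEquivOfLe hZN).toEquiv]
      exact hZ.2.1
    · intro b hb u hu
      exact hZ.2.2.1 b.1 hb u.1 hu
    · intro a ha ha1 x hx
      obtain ⟨hx1, hx2⟩ := mem_inf.1 hx
      exact hZ.2.2.2 a.1 ha (hne a ha1) (mem_inf.2 ⟨hx1, (hcent a x).1 hx2⟩)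
  have hsN : ∀ a ∈ A.subgroupOf N, a ≠ 1 → ∀ x ∈ θN a, ∃ k : ℕ, x ^ s ^ k ∈ Z.subgroupOf N := by
    intro a ha ha1 x hx
    obtain ⟨k, hk⟩ := hs a.1 ha (hne a ha1) x.1 hx
    exact ⟨k, hk⟩
  obtain ⟨W, hW, hWθ⟩ := quotient_single_prime_normal p (A.subgroupOf N) hAe hA3' θN hθN
    (Z.subgroupOf N) hZF s hsN
  have e : ↥W ≃* ↥(W.map N.subtype) := W.equivMapOfInjective _ N.subtype_injective
  refine ⟨W.map N.subtype, ⟨?_, ?_, ?_, ?_⟩, ?_⟩
  · have := hW.1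
    exact Group.isSolvable_of_surjective (f := e.toMonoidHom) e.surjective
  · rw [← Nat.card_congr e.toEquiv]
    exact hW.2.1
  · rintro b hb _ ⟨u, hu, rfl⟩
    exact ⟨⟨b, hAN hb⟩ * u * ⟨b, hAN hb⟩⁻¹, hW.2.2.1 ⟨b, hAN hb⟩ hb u hu, rfl⟩
  · intro a ha ha1 x hx
    obtain ⟨⟨u, hu, rfl⟩, hx2⟩ := mem_inf.1 hx
    have ha1' : (⟨a, hAN ha⟩ : ↥N) ≠ 1 := fun h => ha1 (congrArg Subtype.val h)
    exact hW.2.2.2 ⟨a, hAN ha⟩ ha ha1' (mem_inf.2 ⟨hu, (hcent ⟨a, hAN ha⟩ u).2 hx2⟩)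
  · intro a ha ha1 x hx
    have ha1' : (⟨a, hAN ha⟩ : ↥N) ≠ 1 := fun h => ha1 (congrArg Subtype.val h)
    exact ⟨⟨x, hn a ha ha1 hx⟩, hWθ ⟨a, hAN ha⟩ ha ha1' hx, rfl⟩

end Cfsg.Agent.Lib.Helper58.Sig
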