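import Mathlib
import Cfsg.Prelude.Def_Characters
import Cfsg.Prelude.Def_Perm
import Cfsg.Agent.Lib.Helper58.OrbitalOp

set_option autoImplicit false
set_option linter.unusedSectionVars false

/-!
# Spectral decomposition of commuting operators along multiplicity one constituents
-/

namespace Cfsg.Agent.Lib.Helper58

open Module Representation Cfsg Cfsg.Agent.Lib.Helper3
open scoped ComplexConjugate

section general

variable {G : Type*} [Group G] [Fintype G] {V : Type*} [AddCommGroup V] [Module ℂ V]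
  [FiniteDimensional ℂ V]

/-- A commuting operator is a scalar on the isotypic component of a multiplicity one
constituent. -/
theorem comp_isoProj_of_mult_one (ρ : Representation ℂ G V) {χ : G → ℂ}
    (hχ : IsIrrCharacter G χ) (h1 : classInner ρ.character χ = 1) (T : V →ₗ[ℂ] V)
    (hT : ∀ g, T ∘ₗ ρ g = ρ g ∘ₗ T) : ∃ c : ℂ, T ∘ₗ isoProj χ ρ = c • isoProj χ ρ := by
  obtain ⟨p, hp, hirr, rfl⟩ := exists_irr_sub ρ hχ (by rw [h1]; exact one_ne_zero)
  obtain ⟨c, hc⟩ := exists_scalar_of_mult_one ρ p hp hirr h1 T hT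
  refine ⟨c, ?_⟩
  apply ext_on_irr ρ
  intro p' hp' hirr' w hw
  rw [LinearMap.comp_apply, LinearMap.smul_apply]
  by_cases hc' : (subrep ρ p' hp').character = (subrep ρ p hp).character
  · have hpp : p' = p := eq_of_char_eq_of_mult_one ρ p hp hirr h1 p' hp' hirr' hc'
    rw [isoProj_apply_eq hχ ρ p' hp' hirr' hc' hw]
    exact hc w (hpp ▸ hw)
  · rw [isoProj_apply_ne hχ ρ p' hp' hirr' hc' hw, map_zero, smul_zero]

/-- The isotypic projections of the constituents sum to the identity. -/
theorem sum_isoProj_eq_id (ρ : Representation ℂ G V) (s : Finset (G → ℂ))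
    (hs : ∀ χ ∈ s, IsIrrCharacter G χ)
    (hall : ∀ χ, IsIrrCharacter G χ → classInner ρ.character χ ≠ 0 → χ ∈ s) :
    ∑ χ ∈ s, isoProj χ ρ = LinearMap.id := by
  classical
  apply ext_on_irr ρ
  intro p hp hirr v hv
  rw [LinearMap.sum_apply, LinearMap.id_apply]
  have hmem := hall _ (isIrrCharacter_of_rep _ hirr) (classInner_sub_ne_zero ρ p hp hirr)
  rw [Finset.sum_eq_single_of_mem _ hmem]
  · exact isoProj_apply_eq (hs _ hmem) ρ p hp hirr rfl hv
  · intro χ hχ hne
    exact isoProj_apply_ne (hs χ hχ) ρ p hp hirr (Ne.symm hne) hv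

end general

section perm

variable {G : Type*} [Group G] [Fintype G] {Ω : Type*} [Fintype Ω] [DecidableEq Ω] [MulAction G Ω]

theorem isoProj_one_apply_one :
    isoProj (fun _ : G => (1 : ℂ)) (permRep ℂ G Ω) (fun _ => 1) = fun _ => 1 := by
  have hc0 : (Nat.card G : ℂ) ≠ 0 := by exact_mod_cast Nat.card_pos.ne'
  have hfix : ∀ g : G, permRep ℂ G Ω g (fun _ => 1) = fun _ => 1 := fun g => rfl
  rw [isoProj, LinearMap.smul_apply, opOf_apply]
  simp only [hfix, one_smul, Finset.sum_const, Finset.card_univ, ← Nat.card_eq_fintype_card]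
  rw [← Nat.cast_smul_eq_nsmul ℂ, smul_smul, one_div, inv_mul_cancel₀ hc0, one_smul]

theorem toMatrix'_isoProj_one_const [MulAction.IsPretransitive G Ω] (x y x' y' : Ω) :
    LinearMap.toMatrix' (isoProj (fun _ : G => (1 : ℂ)) (permRep ℂ G Ω)) x y =
      LinearMap.toMatrix' (isoProj (fun _ : G => (1 : ℂ)) (permRep ℂ G Ω)) x' y' := by
  obtain ⟨h, rfl⟩ := MulAction.exists_smul_eq G x x'
  obtain ⟨h', rfl⟩ := MulAction.exists_smul_eq G y y'
  simp only [LinearMap.toMatrix'_apply, isoProj, LinearMap.smul_apply, opOf_apply, one_smul,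
    Pi.smul_apply, Finset.sum_apply, permRep_apply, inv_inv]
  congr 1
  refine Fintype.sum_equiv ((Equiv.mulLeft h').trans (Equiv.mulRight h⁻¹)) _ _ fun g => ?_
  simp only [Equiv.trans_apply, Equiv.coe_mulLeft, Equiv.coe_mulRight, Pi.single_apply]
  congr 1
  apply propext
  rw [mul_smul, inv_smul_smul, mul_smul, smul_left_cancel_iff]

end perm

end Cfsg.Agent.Lib.Helper58
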