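import Mathlib

set_option autoImplicit false
set_option linter.unusedSectionVars false

/-!
# Degree `2p`: a fixed point free element of order `p`, its two orbits; congruences
-/

namespace Cfsg.Agent.Lib.Helper58.TwoP

open MulAction
open scoped Pointwise

section cong

variable {G : Type*} [Group G] {Ω : Type*} [MulAction G Ω]

/-- A `G`-invariant family of functions on a primitive `G`-set which does not separate two
distinct points consists of constant functions. -/
theorem cong {K : Type*} (hprim : IsPreprimitive G Ω) (Y : Set (Ω → K))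
    (hinv : ∀ g : G, ∀ y ∈ Y, (fun ω => y (g • ω)) ∈ Y) {α β : Ω} (hne : α ≠ β)
    (h : ∀ y ∈ Y, y α = y β) : ∀ y ∈ Y, ∀ ω ω', y ω = y ω' := by
  set B : Set Ω := {γ | ∀ y ∈ Y, y γ = y α} with hB
  have hblock : IsBlock G B := by
    rw [isBlock_iff_smul_eq_of_mem]
    intro g a ha hga
    -- `y (g • α) = y α` for all `y`
    have key : ∀ k : G, ∀ a : Ω, a ∈ B → k • a ∈ B → ∀ y ∈ Y, y (k • α) = y α := by
      intro k a ha hka y hy
      have h1 : y (k • a) = y (k • α) := ha _ (hinv k y hy)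
      rw [← h1, hka y hy]
    have hsub : ∀ k : G, ∀ a : Ω, a ∈ B → k • a ∈ B → k • B ⊆ B := by
      intro k a ha hka γ hγ
      obtain ⟨γ', hγ', rfl⟩ := hγ
      intro y hy
      have h1 : y (k • γ') = y (k • α) := hγ' _ (hinv k y hy)
      change y (k • γ') = y α
      rw [h1, key k a ha hka y hy]
    apply Set.Subset.antisymm (hsub g a ha hga)
    have h2 := hsub g⁻¹ (g • a) hga (by rw [inv_smul_smul]; exact ha)
    intro γ hγ
    exact ⟨g⁻¹ • γ, h2 ⟨γ, hγ, rfl⟩, smul_inv_smul g γ⟩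
  have hα : α ∈ B := fun y _ => rfl
  have hβ : β ∈ B := fun y hy => (h y hy).symm
  rcases hprim.isTrivialBlock_of_isBlock hblock with h1 | h1
  · exact absurd (h1 hα hβ) hne
  · intro y hy ω ω'
    have h2 : ω ∈ B := by rw [h1]; trivial
    have h3 : ω' ∈ B := by rw [h1]; trivial
    rw [h2 y hy, h3 y hy]

end cong

section free

variable {G : Type*} [Group G] {Ω : Type*} [MulAction G Ω] {p : ℕ}

/-- `x` has order dividing `p` and no fixed point. -/
structure FreeElt (p : ℕ) (x : G) (Ω : Type*) [MulAction G Ω] : Prop where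
  pow : x ^ p = 1
  free : ∀ ω : Ω, x • ω ≠ ω

variable {x : G}

theorem FreeElt.dvd_of_pow_smul (hp : p.Prime) (h : FreeElt p x Ω) {i : ℕ} {ω : Ω}
    (hi : x ^ i • ω = ω) : p ∣ i := by
  have h1 : period x ω ∣ p := pow_smul_eq_iff_period_dvd.mp (by rw [h.pow, one_smul])
  rcases (Nat.dvd_prime hp).mp h1 with h2 | h2
  · exact absurd (period_eq_one_iff.mp h2) (h.free ω)
  · rw [← h2]
    exact pow_smul_eq_iff_period_dvd.mp hi

theorem FreeElt.injOn (hp : p.Prime) (h : FreeElt p x Ω) (ω : Ω) :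
    Set.InjOn (fun i : ℕ => x ^ i • ω) (Finset.range p : Finset ℕ) := by
  have key : ∀ i j : ℕ, i ≤ j → j < p → x ^ i • ω = x ^ j • ω → i = j := by
    intro i j hij hj heq
    obtain ⟨d, rfl⟩ := Nat.exists_eq_add_of_le hij
    rw [pow_add, mul_smul] at heq
    have h1 := h.dvd_of_pow_smul hp (smul_left_cancel _ heq).symm
    have h2 : d = 0 := Nat.eq_zero_of_dvd_of_lt h1 (by omega)
    omega
  intro i hi j hj heq
  simp only [Finset.coe_range, Set.mem_Iio] at hi hj
  rcases le_total i j with hij | hij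
  · exact key i j hij hj heq
  · exact (key j i hij hi heq.symm).symm

theorem FreeElt.pow_mod (h : FreeElt p x Ω) (n : ℕ) : x ^ n = x ^ (n % p) :=
  pow_eq_pow_mod n h.pow

theorem FreeElt.inv_eq (hp : p.Prime) (h : FreeElt p x Ω) : x⁻¹ = x ^ (p - 1) := by
  rw [inv_eq_iff_mul_eq_one, ← pow_succ', Nat.sub_add_cancel hp.one_le, h.pow]

variable [Fintype Ω] [DecidableEq Ω]

/-- The orbit of a point as a finset. -/
def orb (p : ℕ) (x : G) (ω : Ω) : Finset Ω := (Finset.range p).image (fun i : ℕ => x ^ i • ω)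

theorem card_orb (hp : p.Prime) (h : FreeElt p x Ω) (ω : Ω) : (orb p x ω).card = p := by
  rw [orb, Finset.card_image_of_injOn (h.injOn hp ω), Finset.card_range]

theorem pow_smul_mem_orb (hp : p.Prime) (h : FreeElt p x Ω) (ω : Ω) (n : ℕ) :
    x ^ n • ω ∈ orb p x ω := by
  rw [h.pow_mod n, orb, Finset.mem_image]
  exact ⟨n % p, Finset.mem_range.mpr (Nat.mod_lt _ hp.pos), rfl⟩

theorem self_mem_orb (hp : p.Prime) (h : FreeElt p x Ω) (ω : Ω) : ω ∈ orb p x ω := by
  have := pow_smul_mem_orb hp h ω 0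
  simpa using this

theorem mem_orb_iff {ω ω' : Ω} : ω' ∈ orb p x ω ↔ ∃ i < p, x ^ i • ω = ω' := by
  simp [orb]

theorem smul_mem_orb_iff (hp : p.Prime) (h : FreeElt p x Ω) {ω ω' : Ω} :
    x • ω' ∈ orb p x ω ↔ ω' ∈ orb p x ω := by
  constructor
  · intro h1
    obtain ⟨i, -, hi⟩ := mem_orb_iff.mp h1
    have h2 : ω' = x ^ (p - 1 + i) • ω := by
      rw [pow_add, mul_smul, hi, ← h.inv_eq hp, inv_smul_smul]
    rw [h2]
    exact pow_smul_mem_orb hp h ω _
  · intro h1
    obtain ⟨i, -, rfl⟩ := mem_orb_iff.mp h1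
    rw [← mul_smul, ← pow_succ']
    exact pow_smul_mem_orb hp h ω _

/-- The two orbits of `x` on a set of `2p` points. -/
theorem exists_second_orbit (hp : p.Prime) (h : FreeElt p x Ω) (hcard : Fintype.card Ω = 2 * p)
    (a : Ω) : ∃ b : Ω, Disjoint (orb p x a) (orb p x b) ∧ orb p x a ∪ orb p x b = Finset.univ := by
  have h1 : ∃ b : Ω, b ∉ orb p x a := by
    by_contra hcon
    push Not at hcon
    have h2 : orb p x a = Finset.univ := Finset.eq_univ_iff_forall.mpr hcon
    have h3 := card_orb hp h a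
    rw [h2, Finset.card_univ, hcard] at h3
    have := hp.pos
    omega
  obtain ⟨b, hb⟩ := h1
  have hdisj : Disjoint (orb p x a) (orb p x b) := by
    rw [Finset.disjoint_left]
    intro ω h2 h3
    obtain ⟨j, -, rfl⟩ := mem_orb_iff.mp h3
    apply hb
    clear h3
    induction j with
    | zero => simpa using h2
    | succ j ih =>
      apply ih
      rw [pow_succ', mul_smul] at h2
      exact (smul_mem_orb_iff hp h).mp h2
  refine ⟨b, hdisj, ?_⟩
  apply Finset.eq_univ_of_card
  rw [Finset.card_union_of_disjoint hdisj, card_orb hp h, card_orb hp h, hcard]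
  ring

theorem sum_orb {M : Type*} [AddCommMonoid M] (hp : p.Prime) (h : FreeElt p x Ω) (ω : Ω)
    (f : Ω → M) : ∑ ω' ∈ orb p x ω, f ω' = ∑ i ∈ Finset.range p, f (x ^ i • ω) := by
  rw [orb, Finset.sum_image (h.injOn hp ω)]

/-- A function invariant under `x` is constant on orbits. -/
theorem eq_of_mem_orb {K : Type*} {φ : Ω → K} (hφ : ∀ ω, φ (x • ω) = φ ω) {ω ω' : Ω}
    (h : ω' ∈ orb p x ω) : φ ω' = φ ω := by
  obtain ⟨i, -, rfl⟩ := mem_orb_iff.mp h
  clear h
  induction i with
  | zero => simp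
  | succ i ih => rw [pow_succ', mul_smul, hφ, ih]

end free

end Cfsg.Agent.Lib.Helper58.TwoP
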