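import Mathlib
import Cfsg.Prelude.Def_Characters
import Cfsg.Prelude.Def_Perm
import Cfsg.Agent.Lib.Helper58.Spectral
import Cfsg.Agent.Lib.Helper58.PermRank
import Cfsg.Agent.S0719

set_option autoImplicit false
set_option linter.unusedSectionVars false

/-!
# Rank three groups: decomposition of the permutation character, quadratic equation of the
orbital matrix
-/

namespace Cfsg.Agent.Lib.Helper58.TwoP

open Cfsg Cfsg.Agent.Lib.Helper3 Cfsg.Agent.Lib.Helper58

/-- The permutation character of a rank three group. -/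
theorem rank3_decomp {G : Type*} [Group G] [Fintype G] {Ω : Type*} [Fintype Ω] [MulAction G Ω]
    [MulAction.IsPretransitive G Ω] (a : Ω)
    (hrank : Nat.card (MulAction.orbitRel.Quotient (MulAction.stabilizer G a) Ω) = 3) :
    ∃ χ₁ χ₂ : G → ℂ, IsIrrCharacter G χ₁ ∧ IsIrrCharacter G χ₂ ∧
      (fun g : G => (Nat.card (MulAction.fixedBy Ω g) : ℂ)) = fun g => 1 + χ₁ g + χ₂ g := by
  classical
  have := Fintype.ofFinite (IrrCharacter G)
  set π := fun g : G => (Nat.card (MulAction.fixedBy Ω g) : ℂ) with hπdef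
  have hπ : IsCharacter G π := isCharacter_card_fixedBy Ω
  choose m hm using fun χ : IrrCharacter G =>
    IsCharacter.classInner_eq_natCast hπ (IsIrrCharacter.isCharacter χ.2)
  have hm1 : m (oneIrr G) = 1 := by
    have h2 : classInner π (fun _ => (1 : ℂ)) = 1 := by
      rw [hπdef, classInner_card_fixedBy_one]
      have : Nonempty Ω := ⟨a⟩
      rw [(card_orbitRel_quotient_eq_one_iff Ω).mpr inferInstance]
      simp
    have h3 := hm (oneIrr G)
    rw [show ((oneIrr G : IrrCharacter G) : G → ℂ) = fun _ => 1 from rfl, h2] at h3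
    exact_mod_cast h3.symm
  have hr : Nat.card (MulAction.orbitRel.Quotient (MulAction.stabilizer G a) Ω) =
      ∑ χ, m χ ^ 2 := by
    have h1 := classInner_perm_self_eq_rank (G := G) a
    rw [classInner_self_eq_sum_sq hπ m hm] at h1
    exact_mod_cast h1.symm
  rw [hrank] at hr
  have hr2 : ∑ χ ∈ Finset.univ.erase (oneIrr G), m χ ^ 2 = 2 := by
    have h1 := Finset.add_sum_erase Finset.univ (fun χ => m χ ^ 2) (Finset.mem_univ (oneIrr G))
    simp only [hm1] at h1
    omega
  have hle : ∀ χ ∈ Finset.univ.erase (oneIrr G), m χ ≤ 1 := by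
    intro χ hχ
    by_contra hcon
    push Not at hcon
    have h1 : m χ ^ 2 ≤ ∑ χ ∈ Finset.univ.erase (oneIrr G), m χ ^ 2 :=
      Finset.single_le_sum (f := fun χ => m χ ^ 2) (fun _ _ => Nat.zero_le _) hχ
    have h2 : 4 ≤ m χ ^ 2 := by nlinarith
    omega
  set T := (Finset.univ.erase (oneIrr G)).filter fun χ => m χ = 1 with hT
  have hTcard : T.card = 2 := by
    rw [hT, Finset.card_filter, ← hr2]
    refine Finset.sum_congr rfl fun χ hχ => ?_
    have h1 := hle χ hχ
    have h2 : m χ = 0 ∨ m χ = 1 := by omega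
    rcases h2 with h2 | h2 <;> simp [h2]
  obtain ⟨χ₁, χ₂, h12, hTeq⟩ := Finset.card_eq_two.mp hTcard
  have hχ₁ : χ₁ ∈ T := by rw [hTeq]; simp
  have hχ₂ : χ₂ ∈ T := by rw [hTeq]; simp
  rw [hT, Finset.mem_filter, Finset.mem_erase] at hχ₁ hχ₂
  refine ⟨χ₁, χ₂, χ₁.2, χ₂.2, ?_⟩
  have hexp := classFunction_expansion (IsCharacter.isClassFunction hπ)
  have hsub : ∑ χ : IrrCharacter G, classInner π χ • (χ : G → ℂ) =
      ∑ χ ∈ ({oneIrr G, χ₁, χ₂} : Finset (IrrCharacter G)), classInner π χ • (χ : G → ℂ) := by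
    symm
    apply Finset.sum_subset (Finset.subset_univ _)
    intro χ _ hχ
    simp only [Finset.mem_insert, Finset.mem_singleton, not_or] at hχ
    have h1 : χ ∈ Finset.univ.erase (oneIrr G) := Finset.mem_erase.mpr ⟨hχ.1, Finset.mem_univ _⟩
    have h2 : m χ ≠ 1 := by
      intro h3
      have h4 : χ ∈ T := by rw [hT, Finset.mem_filter]; exact ⟨h1, h3⟩
      rw [hTeq] at h4
      simp only [Finset.mem_insert, Finset.mem_singleton] at h4
      rcases h4 with h4 | h4
      · exact hχ.2.1 h4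
      · exact hχ.2.2 h4
    have h3 : m χ = 0 := by
      have := hle χ h1
      omega
    rw [hm, h3]
    simp
  rw [hsub, Finset.sum_insert (by simp [Ne.symm hχ₁.1.1, Ne.symm hχ₂.1.1]),
    Finset.sum_pair h12, hm, hm, hm, hm1, hχ₁.2, hχ₂.2] at hexp
  rw [hexp]
  ext g
  simp [add_assoc]

/-- The quadratic equation of the orbital matrix of a rank three group whose non principal
constituents have different degrees. -/
theorem spectral2 {G : Type*} [Group G] [Fintype G] {Ω : Type*} [Fintype Ω] [DecidableEq Ω]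
    [MulAction G Ω] [MulAction.IsPretransitive G Ω] (a₀ : Ω)
    (χ₁ χ₂ : G → ℂ) (h₁ : Cfsg.IsIrrCharacter G χ₁) (h₂ : Cfsg.IsIrrCharacter G χ₂)
    (hπ : (fun g : G => (Nat.card (MulAction.fixedBy Ω g) : ℂ)) = fun g => 1 + χ₁ g + χ₂ g)
    (hd : χ₁ 1 ≠ χ₂ 1) (b : Ω) (hb : b ≠ a₀) :
    ∃ (r s γ : ℂ), (orbMat G ℂ a₀ b).transpose = orbMat G ℂ a₀ b ∧
      (Nat.card (MulAction.orbit (MulAction.stabilizer G a₀) b) : ℂ) + χ₁ 1 * r + χ₂ 1 * s = 0 ∧
      ∀ x y, (orbMat G ℂ a₀ b * orbMat G ℂ a₀ b) x y - (r + s) * orbMat G ℂ a₀ b x y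
        + r * s * (1 : Matrix Ω Ω ℂ) x y = γ := by
  set k := Nat.card (MulAction.orbit (MulAction.stabilizer G a₀) b) with hk
  set ρ := permRep ℂ G Ω with hρ
  set one : G → ℂ := fun _ => 1 with hone
  have h0 : IsIrrCharacter G one := isIrrCharacter_one
  have hchar : ρ.character = one + χ₁ + χ₂ := char_permRep.trans hπ
  have hinner : ∀ ψ, IsIrrCharacter G ψ → classInner ρ.character ψ =
      (if one = ψ then 1 else 0) + (if χ₁ = ψ then 1 else 0) + (if χ₂ = ψ then 1 else 0) := by
    intro ψ hψ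
    rw [hchar, classInner_add_left, classInner_add_left, classInner_irr h0 hψ,
      classInner_irr h₁ hψ, classInner_irr h₂ hψ]
  have hπ1 : classInner ρ.character one = 1 := by
    rw [hρ, char_permRep, classInner_card_fixedBy_one]
    have : Nonempty Ω := ⟨a₀⟩
    rw [(card_orbitRel_quotient_eq_one_iff Ω).mpr inferInstance]
    simp
  have hne1 : χ₁ ≠ one := by
    intro h
    have := hinner one h0
    rw [hπ1, if_pos rfl, if_pos h] at this
    split_ifs at this <;> norm_num at this
  have hne2 : χ₂ ≠ one := by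
    intro h
    have := hinner one h0
    rw [hπ1, if_pos rfl, if_pos h] at this
    split_ifs at this <;> norm_num at this
  have hne12 : χ₁ ≠ χ₂ := by
    intro h
    exact hd (by rw [h])
  have hm1 : classInner ρ.character χ₁ = 1 := by
    rw [hinner χ₁ h₁, if_neg (Ne.symm hne1), if_pos rfl, if_neg (Ne.symm hne12)]
    norm_num
  have hm2 : classInner ρ.character χ₂ = 1 := by
    rw [hinner χ₂ h₂, if_neg (Ne.symm hne2), if_neg hne12, if_pos rfl]
    norm_num
  have hmem : ∀ ψ, IsIrrCharacter G ψ → classInner ρ.character ψ ≠ 0 →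
      ψ = one ∨ ψ = χ₁ ∨ ψ = χ₂ := by
    intro ψ hψ hne
    rw [hinner ψ hψ] at hne
    by_contra hcon
    push Not at hcon
    rw [if_neg (Ne.symm hcon.1), if_neg (Ne.symm hcon.2.1), if_neg (Ne.symm hcon.2.2)] at hne
    norm_num at hne
  -- reality
  have hinv : ∀ ψ, classInner ρ.character (fun g => ψ g⁻¹) = classInner ρ.character ψ := by
    intro ψ
    rw [hρ, char_permRep]
    exact Cfsg.Agent.S0719.classInner_perm_inv ψ
  have hr1 : (fun g => χ₁ g⁻¹) = χ₁ := by
    rcases hmem _ (Cfsg.Agent.S0717.isIrr_inv h₁) (by rw [hinv, hm1]; exact one_ne_zero)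
      with h | h | h
    · exfalso
      apply hne1
      ext g
      have := congrFun h g⁻¹
      simpa using this
    · exact h
    · exfalso
      have := congrFun h 1
      simp only [inv_one] at this
      exact hd this
  have hr2 : (fun g => χ₂ g⁻¹) = χ₂ := by
    rcases hmem _ (Cfsg.Agent.S0717.isIrr_inv h₂) (by rw [hinv, hm2]; exact one_ne_zero)
      with h | h | h
    · exfalso
      apply hne2
      ext g
      have := congrFun h g⁻¹
      simpa using this
    · exfalso
      have := congrFun h 1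
      simp only [inv_one] at this
      exact hd this.symm
    · exact h
  have hreal : ∀ χ : G → ℂ, IsIrrCharacter G χ → classInner ρ.character χ ≠ 0 →
      classInner ρ.character χ = 1 ∧ ∀ g : G, (starRingEnd ℂ) (χ g) = χ g := by
    intro χ hχ hne
    rcases hmem χ hχ hne with h | h | h
    · subst h
      exact ⟨hπ1, fun g => by simp [hone]⟩
    · subst h
      refine ⟨hm1, fun g => ?_⟩
      rw [← IsCharacter.apply_inv (IsIrrCharacter.isCharacter h₁)]
      exact congrFun hr1 g
    · subst h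
      refine ⟨hm2, fun g => ?_⟩
      rw [← IsCharacter.apply_inv (IsIrrCharacter.isCharacter h₂)]
      exact congrFun hr2 g
  -- the orbital operator
  set M := orbMat G ℂ a₀ b with hM
  set A := Matrix.toLin' M with hA
  have hAc : ∀ g, A ∘ₗ ρ g = ρ g ∘ₗ A := toLin'_comm _ (orbMat_smul_smul G ℂ a₀ b)
  have hsym : M.transpose = M := by
    have h1 := tr_eq_self_of_multFree_real hreal A hAc
    rw [hA, tr_toLin'] at h1
    exact Matrix.toLin'.injective h1
  set E₀ := isoProj one ρ with hE₀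
  set E₁ := isoProj χ₁ ρ with hE₁
  set E₂ := isoProj χ₂ ρ with hE₂
  obtain ⟨c₀, hc₀⟩ := comp_isoProj_of_mult_one ρ h0 hπ1 A hAc
  obtain ⟨r, hr⟩ := comp_isoProj_of_mult_one ρ h₁ hm1 A hAc
  obtain ⟨s, hs⟩ := comp_isoProj_of_mult_one ρ h₂ hm2 A hAc
  have hid : E₀ + E₁ + E₂ = LinearMap.id := by
    have h1 := sum_isoProj_eq_id ρ {one, χ₁, χ₂} (by
      intro χ hχ
      simp only [Finset.mem_insert, Finset.mem_singleton] at hχ
      rcases hχ with rfl | rfl | rfl
      · exact h0
      · exact h₁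
      · exact h₂) (by
      intro χ hχ hne
      simp only [Finset.mem_insert, Finset.mem_singleton]
      exact hmem χ hχ hne)
    rw [Finset.sum_insert (by simp [Ne.symm hne1, Ne.symm hne2]), Finset.sum_pair hne12] at h1
    rw [add_assoc]
    exact h1
  have hAdec : A = c₀ • E₀ + r • E₁ + s • E₂ := by
    calc A = A ∘ₗ LinearMap.id := (LinearMap.comp_id A).symm
      _ = c₀ • E₀ + r • E₁ + s • E₂ := by
        rw [← hid, LinearMap.comp_add, LinearMap.comp_add, hc₀, hr, hs]
  have hAAdec : A ∘ₗ A = (c₀ ^ 2) • E₀ + (r ^ 2) • E₁ + (s ^ 2) • E₂ := by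
    nth_rw 2 [hAdec]
    rw [LinearMap.comp_add, LinearMap.comp_add, LinearMap.comp_smul, LinearMap.comp_smul,
      LinearMap.comp_smul, hc₀, hr, hs, smul_smul, smul_smul, smul_smul, sq, sq, sq]
  have hc₀k : c₀ = k := by
    have h1 := congrFun (LinearMap.congr_fun hc₀ (fun _ => 1)) a₀
    have h5 : isoProj one ρ (fun _ => 1) = fun _ => 1 := isoProj_one_apply_one
    have h6 : A (fun _ => 1) = (k : ℂ) • (fun _ => (1 : ℂ)) := toLin'_orbMat_one G a₀ b
    rw [LinearMap.comp_apply, LinearMap.smul_apply, h5, h6] at h1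
    simpa using h1.symm
  have htrE₀ : LinearMap.trace ℂ _ E₀ = 1 := by
    rw [hE₀, trace_isoProj, classInner_char_irr_comm ρ h0, hπ1]
    simp [hone]
  have htrE₁ : LinearMap.trace ℂ _ E₁ = χ₁ 1 := by
    rw [hE₁, trace_isoProj, classInner_char_irr_comm ρ h₁, hm1, mul_one]
  have htrE₂ : LinearMap.trace ℂ _ E₂ = χ₂ 1 := by
    rw [hE₂, trace_isoProj, classInner_char_irr_comm ρ h₂, hm2, mul_one]
  have hEq1 : (k : ℂ) + χ₁ 1 * r + χ₂ 1 * s = 0 := by
    have h1 : LinearMap.trace ℂ _ A = 0 := trace_toLin'_orbMat G hb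
    rw [hAdec, map_add, map_add, map_smul, map_smul, map_smul, htrE₀, htrE₁, htrE₂, hc₀k] at h1
    simp only [smul_eq_mul] at h1
    linear_combination h1
  have hZ : A ∘ₗ A - (r + s) • A + (r * s) • LinearMap.id = ((c₀ - r) * (c₀ - s)) • E₀ := by
    rw [hAAdec, ← hid]
    nth_rw 1 [hAdec]
    module
  have hZm := congrArg LinearMap.toMatrix' hZ
  rw [map_add, map_sub, map_smul, map_smul, map_smul, LinearMap.toMatrix'_comp,
    LinearMap.toMatrix'_id, hA, LinearMap.toMatrix'_toLin'] at hZm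
  refine ⟨r, s, ((c₀ - r) * (c₀ - s)) * LinearMap.toMatrix' E₀ a₀ a₀, hsym, hEq1, fun x y => ?_⟩
  have h1 := congrFun (congrFun hZm x) y
  simp only [Matrix.add_apply, Matrix.sub_apply, Matrix.smul_apply, smul_eq_mul] at h1
  rw [h1, hE₀, hρ, toMatrix'_isoProj_one_const x y a₀ a₀]

end Cfsg.Agent.Lib.Helper58.TwoP
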