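import Mathlib
import Cfsg.Prelude.Def_Perm
import Cfsg.Agent.Lib.Helper58.TwoPBasic

set_option autoImplicit false
set_option linter.unusedSectionVars false

/-!
# Degree `2p`: the permutation module over `ZMod p`, the operator `T = X - 1`
-/

namespace Cfsg.Agent.Lib.Helper58.TwoP

open MulAction Cfsg

/-- The configuration: a primitive group on `2p` points with a fixed point free element of
order `p` and representatives `a`, `b` of its two orbits. -/
structure Cfg (G : Type*) (Ω : Type*) [Group G] [Fintype Ω] [DecidableEq Ω] [MulAction G Ω]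
    (p : ℕ) where
  x : G
  a : Ω
  b : Ω
  prim : IsPreprimitive G Ω
  free : FreeElt p x Ω
  disj : Disjoint (orb p x a) (orb p x b)
  union : orb p x a ∪ orb p x b = Finset.univ

variable {G : Type*} {Ω : Type*} [Group G] [Fintype Ω] [DecidableEq Ω] [MulAction G Ω]
  {p : ℕ} [hpF : Fact p.Prime]

/-- the permutation representation over `ZMod p` -/
noncomputable abbrev rho (G : Type*) (Ω : Type*) [Group G] [MulAction G Ω] (p : ℕ) :
    Representation (ZMod p) G (Ω → ZMod p) := permRep (ZMod p) G Ω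

theorem rho_apply (g : G) (φ : Ω → ZMod p) (ω : Ω) : rho G Ω p g φ ω = φ (g⁻¹ • ω) := rfl

theorem rho_mul (g : G) (φ ψ : Ω → ZMod p) :
    rho G Ω p g (φ * ψ) = rho G Ω p g φ * rho G Ω p g ψ := rfl

theorem rho_const (g : G) (c : ZMod p) : rho G Ω p g (fun _ => c) = fun _ => c := rfl

theorem rho_one' (g : G) : rho G Ω p g (1 : Ω → ZMod p) = 1 := rfl

namespace Cfg

variable (c : Cfg G Ω p)

/-- the shift `φ ↦ φ ∘ x` -/
noncomputable def X : Module.End (ZMod p) (Ω → ZMod p) := rho G Ω p c.x⁻¹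

/-- `T = X - 1` -/
noncomputable def T : Module.End (ZMod p) (Ω → ZMod p) := c.X - 1

theorem X_apply (φ : Ω → ZMod p) (ω : Ω) : c.X φ ω = φ (c.x • ω) := by
  rw [X, rho_apply, inv_inv]

theorem X_pow_apply (i : ℕ) (φ : Ω → ZMod p) (ω : Ω) : (c.X ^ i) φ ω = φ (c.x ^ i • ω) := by
  induction i generalizing ω with
  | zero => simp
  | succ i ih => rw [pow_succ', Module.End.mul_apply, X_apply, ih, ← mul_smul, ← pow_succ]

theorem X_mul (φ ψ : Ω → ZMod p) : c.X (φ * ψ) = c.X φ * c.X ψ := rfl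

theorem X_one : c.X (1 : Ω → ZMod p) = 1 := rfl

theorem T_apply (φ : Ω → ZMod p) : c.T φ = c.X φ - φ := rfl

theorem X_eq (φ : Ω → ZMod p) : c.X φ = φ + c.T φ := by rw [T_apply]; abel

theorem T_one : c.T (1 : Ω → ZMod p) = 0 := by rw [T_apply, X_one, sub_self]

theorem T_const (k : ZMod p) : c.T (fun _ => k) = 0 := by
  rw [T_apply]; ext ω; rw [Pi.sub_apply, X_apply, sub_self]; rfl

theorem X_pow_p : c.X ^ p = 1 := by
  refine LinearMap.ext fun φ => funext fun ω => ?_
  rw [X_pow_apply, c.free.pow, one_smul]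
  rfl

theorem commute_XT : Commute c.X c.T := by
  rw [T]; exact (Commute.refl _).sub_right (Commute.one_right _)

theorem T_pow_p : c.T ^ p = 0 := by
  have h1 : ((Polynomial.X : Polynomial (ZMod p)) - 1) ^ p = Polynomial.X ^ p - 1 := by
    rw [sub_pow_char, one_pow]
  have h2 := congrArg (Polynomial.aeval c.X) h1
  simp only [map_pow, map_sub, Polynomial.aeval_X, map_one] at h2
  rw [T, h2, X_pow_p, sub_self]

theorem T_pow_pred : c.T ^ (p - 1) = ∑ i ∈ Finset.range p, c.X ^ i := by
  have h1 : ((Polynomial.X : Polynomial (ZMod p)) - 1) ^ (p - 1) =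
      ∑ i ∈ Finset.range p, Polynomial.X ^ i := by
    have h3 : ((Polynomial.X : Polynomial (ZMod p)) - 1) ≠ 0 := Polynomial.X_sub_C_ne_zero 1
    apply mul_left_cancel₀ h3
    rw [mul_geom_sum, ← pow_succ', Nat.sub_add_cancel hpF.out.one_le, sub_pow_char, one_pow]
  have h2 := congrArg (Polynomial.aeval c.X) h1
  simp only [map_pow, map_sub, Polynomial.aeval_X, map_one, map_sum] at h2
  rw [T, h2]

theorem T_pow_pred_apply (φ : Ω → ZMod p) (ω : Ω) :
    (c.T ^ (p - 1)) φ ω = ∑ i ∈ Finset.range p, φ (c.x ^ i • ω) := by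
  rw [T_pow_pred, LinearMap.sum_apply, Finset.sum_apply]
  exact Finset.sum_congr rfl fun i _ => c.X_pow_apply i φ ω

theorem T_pow_of_le {m n : ℕ} (hmn : m ≤ n) {φ : Ω → ZMod p} (h : (c.T ^ m) φ = 0) :
    (c.T ^ n) φ = 0 := by
  obtain ⟨d, rfl⟩ := Nat.exists_eq_add_of_le hmn
  rw [add_comm, pow_add, Module.End.mul_apply, h, map_zero]

theorem T_mul (u v : Ω → ZMod p) : c.T (u * v) = c.T u * v + u * c.T v + c.T u * c.T v := by
  rw [T_apply, X_mul, X_eq, X_eq]; ring

/-- Leibniz vanishing. -/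
theorem T_pow_mul_eq_zero (n : ℕ) : ∀ (a b : ℕ) (u v : Ω → ZMod p), a + b ≤ n + 1 →
    (c.T ^ a) u = 0 → (c.T ^ b) v = 0 → (c.T ^ n) (u * v) = 0 := by
  induction n with
  | zero =>
    intro a b u v hab hu hv
    rcases Nat.eq_zero_or_pos a with rfl | ha
    · simp only [pow_zero, Module.End.one_apply] at hu
      rw [hu, zero_mul, map_zero]
    · have hb : b = 0 := by omega
      subst hb
      simp only [pow_zero, Module.End.one_apply] at hv
      rw [hv, mul_zero, map_zero]
  | succ n ih =>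
    intro a b u v hab hu hv
    rcases Nat.eq_zero_or_pos a with rfl | ha
    · simp only [pow_zero, Module.End.one_apply] at hu
      rw [hu, zero_mul, map_zero]
    rcases Nat.eq_zero_or_pos b with rfl | hb
    · simp only [pow_zero, Module.End.one_apply] at hv
      rw [hv, mul_zero, map_zero]
    obtain ⟨a', rfl⟩ := Nat.exists_eq_succ_of_ne_zero ha.ne'
    obtain ⟨b', rfl⟩ := Nat.exists_eq_succ_of_ne_zero hb.ne'
    have hu' : (c.T ^ a') (c.T u) = 0 := by rw [← Module.End.mul_apply, ← pow_succ]; exact hu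
    have hv' : (c.T ^ b') (c.T v) = 0 := by rw [← Module.End.mul_apply, ← pow_succ]; exact hv
    rw [pow_succ, Module.End.mul_apply, T_mul, map_add, map_add,
      ih a' (b' + 1) _ _ (by omega) hu' hv, ih (a' + 1) b' _ _ (by omega) hu hv',
      ih a' b' _ _ (by omega) hu' hv']
    simp

/-- Leibniz for a product with a function `ℓ` such that `T ℓ = 1`. -/
theorem T_pow_succ_mul {l : Ω → ZMod p} (hl : c.T l = 1) (u : Ω → ZMod p) (k : ℕ) :
    (c.T ^ (k + 1)) (l * u) = l * (c.T ^ (k + 1)) u + ((k + 1 : ℕ) : ZMod p) • c.X ((c.T ^ k) u) := by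
  induction k with
  | zero =>
    simp only [zero_add, pow_one, pow_zero, Module.End.one_apply, Nat.cast_one, one_smul]
    rw [T_mul, hl, X_eq]; ring
  | succ k ih =>
    have hcomm : c.T (c.X ((c.T ^ k) u)) = c.X ((c.T ^ (k + 1)) u) := by
      rw [← Module.End.mul_apply, ← (c.commute_XT).eq, Module.End.mul_apply,
        ← Module.End.mul_apply c.T, ← pow_succ']
    rw [pow_succ', Module.End.mul_apply, ih, map_add, map_smul, hcomm, T_mul, hl,
      ← Module.End.mul_apply c.T, ← pow_succ', c.X_eq ((c.T ^ (k + 1)) u),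
      ← Module.End.mul_apply c.T, ← pow_succ']
    push_cast
    simp only [add_smul, one_smul, smul_add]
    ring

end Cfg

end Cfsg.Agent.Lib.Helper58.TwoP
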