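import Mathlib
import Cfsg.Prelude.Def_Perm
import Cfsg.Agent.Lib.Helper58.TwoPMod1

set_option autoImplicit false
set_option linter.unusedSectionVars false

/-!
# Degree `2p`: fixed vectors of small invariant subspaces, no invariant subspace of small dimension
-/

namespace Cfsg.Agent.Lib.Helper58.TwoP

open MulAction Cfsg Module

variable {G : Type*} {Ω : Type*} [Group G] [Fintype Ω] [DecidableEq Ω] [MulAction G Ω]
  {p : ℕ} [hpF : Fact p.Prime]

namespace Cfg

variable (c : Cfg G Ω p)

include c in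
theorem card_eq : Fintype.card Ω = 2 * p := by
  rw [← Finset.card_univ, ← c.union, Finset.card_union_of_disjoint c.disj,
    card_orb hpF.out c.free, card_orb hpF.out c.free]
  ring

theorem mem_or (ω : Ω) : ω ∈ orb p c.x c.a ∨ ω ∈ orb p c.x c.b := by
  have : ω ∈ orb p c.x c.a ∪ orb p c.x c.b := by rw [c.union]; exact Finset.mem_univ ω
  exact Finset.mem_union.mp this

theorem b_notMem : c.b ∉ orb p c.x c.a := fun h =>
  (Finset.disjoint_left.mp c.disj h) (self_mem_orb hpF.out c.free c.b)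

/-- indicator of the first orbit -/
noncomputable def u₁ : Ω → ZMod p := fun ω => if ω ∈ orb p c.x c.a then 1 else 0

theorem u₁_a : c.u₁ c.a = 1 := by
  rw [u₁, if_pos (self_mem_orb hpF.out c.free c.a)]

theorem u₁_b : c.u₁ c.b = 0 := by
  rw [u₁, if_neg c.b_notMem]

theorem apply_smul_of_T_eq_zero {v : Ω → ZMod p} (hv : c.T v = 0) (ω : Ω) :
    v (c.x • ω) = v ω := by
  have := congrFun hv ω
  rw [T_apply, Pi.sub_apply, X_apply] at this
  exact sub_eq_zero.mp this

/-- shape of the fixed vectors -/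
theorem fixed_eq {v : Ω → ZMod p} (hv : c.T v = 0) :
    v = (fun _ => v c.b) + (v c.a - v c.b) • c.u₁ := by
  ext ω
  simp only [Pi.add_apply, Pi.smul_apply, smul_eq_mul, u₁]
  rcases c.mem_or ω with h | h
  · rw [if_pos h, eq_of_mem_orb (c.apply_smul_of_T_eq_zero hv) h]; ring
  · have h' : ω ∉ orb p c.x c.a := fun h1 => (Finset.disjoint_left.mp c.disj h1) h
    rw [if_neg h', eq_of_mem_orb (c.apply_smul_of_T_eq_zero hv) h]; ring

theorem T_u₁ : c.T c.u₁ = 0 := by
  ext ω
  rw [T_apply, Pi.sub_apply, X_apply]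
  simp only [u₁, smul_mem_orb_iff hpF.out c.free, sub_self, Pi.zero_apply]

theorem exists_g₀ : ∃ g₀ : G, (c.T ^ (p - 1)) (rho G Ω p g₀ c.u₁) c.a ≠ 0 := by
  have hp := hpF.out
  have h1 : ∃ g : G, c.u₁ (g • c.a) ≠ c.u₁ (g • c.x • c.a) := by
    by_contra hcon
    push Not at hcon
    have h2 := cong c.prim (Set.range fun g : G => fun ω => c.u₁ (g • ω))
      (by
        rintro g _ ⟨k, rfl⟩
        exact ⟨k * g, by ext ω; simp only [mul_smul]⟩)
      (Ne.symm (c.free.free c.a)) (by
        rintro _ ⟨k, rfl⟩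
        exact hcon k) _ ⟨1, rfl⟩ c.a c.b
    simp only [one_smul] at h2
    rw [u₁_a, u₁_b] at h2
    exact one_ne_zero h2
  obtain ⟨g, hg⟩ := h1
  refine ⟨g⁻¹, ?_⟩
  rw [T_pow_pred_apply]
  simp only [rho_apply, inv_inv, u₁]
  rw [Finset.sum_boole]
  set N := (Finset.filter (fun i => g • c.x ^ i • c.a ∈ orb p c.x c.a) (Finset.range p)).card
    with hN
  have h0 : 0 ∈ Finset.range p := Finset.mem_range.mpr hp.pos
  have h1' : 1 ∈ Finset.range p := Finset.mem_range.mpr hp.one_lt
  simp only [u₁] at hg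
  have hpos : 0 < N ∧ N < p := by
    by_cases hA : g • c.a ∈ orb p c.x c.a
    · have hB : g • c.x • c.a ∉ orb p c.x c.a := by
        intro hB
        rw [if_pos hA, if_pos hB] at hg
        exact hg rfl
      constructor
      · apply Finset.card_pos.mpr
        exact ⟨0, Finset.mem_filter.mpr ⟨h0, by simpa using hA⟩⟩
      · have : N < (Finset.range p).card := by
          apply Finset.card_lt_card
          rw [Finset.ssubset_iff_of_subset (Finset.filter_subset _ _)]
          exact ⟨1, h1', fun h => hB (by simpa using (Finset.mem_filter.mp h).2)⟩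
        simpa using this
    · have hB : g • c.x • c.a ∈ orb p c.x c.a := by
        by_contra hB
        rw [if_neg hA, if_neg hB] at hg
        exact hg rfl
      constructor
      · apply Finset.card_pos.mpr
        exact ⟨1, Finset.mem_filter.mpr ⟨h1', by simpa using hB⟩⟩
      · have : N < (Finset.range p).card := by
          apply Finset.card_lt_card
          rw [Finset.ssubset_iff_of_subset (Finset.filter_subset _ _)]
          exact ⟨0, h0, fun h => hA (by simpa using (Finset.mem_filter.mp h).2)⟩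
        simpa using this
  intro hzero
  rw [ZMod.natCast_eq_zero_iff] at hzero
  have := Nat.le_of_dvd hpos.1 hzero
  omega

/-- a group element moving the first orbit properly -/
noncomputable def g₀ : G := Classical.choose c.exists_g₀

/-- a fixed vector which is an eigenvector of all commuting operators -/
noncomputable def δ : Ω → ZMod p := (c.T ^ (p - 1)) (rho G Ω p c.g₀ c.u₁)

theorem δ_a : c.δ c.a ≠ 0 := Classical.choose_spec c.exists_g₀

theorem T_δ : c.T c.δ = 0 := by
  rw [δ, ← Module.End.mul_apply, ← pow_succ', Nat.sub_add_cancel hpF.out.one_le, T_pow_p]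
  rfl

theorem sum_univ (f : Ω → ZMod p) :
    ∑ ω, f ω = ∑ i ∈ Finset.range p, f (c.x ^ i • c.a) + ∑ i ∈ Finset.range p, f (c.x ^ i • c.b) := by
  rw [← c.union, Finset.sum_union c.disj, sum_orb hpF.out c.free, sum_orb hpF.out c.free]

theorem δ_b : c.δ c.b = - c.δ c.a := by
  rw [eq_neg_iff_add_eq_zero, add_comm, δ, T_pow_pred_apply, T_pow_pred_apply, ← c.sum_univ]
  simp only [rho_apply]
  rw [Fintype.sum_equiv (MulAction.toPerm c.g₀⁻¹) (fun ω => c.u₁ (c.g₀⁻¹ • ω)) c.u₁
    (fun ω => rfl)]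
  simp only [u₁]
  rw [Finset.sum_boole]
  have : (Finset.filter (fun ω => ω ∈ orb p c.x c.a) Finset.univ) = orb p c.x c.a := by
    ext ω; simp
  rw [this, card_orb hpF.out c.free]
  exact CharP.cast_eq_zero (ZMod p) p

theorem T_pow_pred_const (k : ZMod p) : (c.T ^ (p - 1)) (fun _ : Ω => k) = 0 := by
  apply c.T_pow_of_le (m := 1) (by have := hpF.out.two_le; omega)
  rw [pow_one, T_const]

/-- Fixed vectors of a small invariant subspace are constant. -/
theorem fixed_const (S : Submodule (ZMod p) (Ω → ZMod p))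
    (hG : ∀ g : G, ∀ v ∈ S, rho G Ω p g v ∈ S) (hsmall : ∀ v ∈ S, (c.T ^ (p - 1)) v = 0)
    {v : Ω → ZMod p} (hvS : v ∈ S) (hv : c.T v = 0) : ∃ k : ZMod p, v = fun _ => k := by
  have h1 := c.fixed_eq hv
  have h2 := hsmall _ (hG c.g₀ v hvS)
  rw [h1, map_add, map_smul, rho_const, map_add, map_smul, T_pow_pred_const, zero_add] at h2
  have h3 := congrFun h2 c.a
  rw [Pi.smul_apply, smul_eq_mul, Pi.zero_apply] at h3
  rcases mul_eq_zero.mp h3 with h4 | h4
  · refine ⟨v c.b, ?_⟩
    rw [h4, zero_smul, add_zero] at h1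
    exact h1
  · exact absurd h4 c.δ_a

/-- Uniseriality in the form we need. -/
theorem mem_of_chain (Z W : Submodule (ZMod p) (Ω → ZMod p)) (hZT : ∀ z ∈ Z, c.T z ∈ Z)
    (hfix : ∀ z ∈ Z, c.T z = 0 → ∃ k : ZMod p, z = fun _ => k) (hWT : ∀ w ∈ W, c.T w ∈ W) :
    ∀ (a : ℕ) (w : Ω → ZMod p), w ∈ Z → w ∈ W → ∀ k : ZMod p, k ≠ 0 →
      (c.T ^ a) w = (fun _ => k) → ∀ z ∈ Z, (c.T ^ (a + 1)) z = 0 → z ∈ W := by
  intro a
  induction a with
  | zero =>
    intro w _ hwW k hk hw z hzZ hz
    simp only [pow_zero, Module.End.one_apply] at hw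
    simp only [zero_add, pow_one] at hz
    obtain ⟨k', rfl⟩ := hfix z hzZ hz
    have : (fun _ : Ω => k') = (k' / k) • w := by
      rw [hw]; ext ω; simp only [Pi.smul_apply, smul_eq_mul]; field_simp
    rw [this]
    exact W.smul_mem _ hwW
  | succ a ih =>
    intro w hwZ hwW k hk hw z hzZ hz
    have hpowZ : ∀ (n : ℕ), ∀ y ∈ Z, (c.T ^ n) y ∈ Z := by
      intro n
      induction n with
      | zero => intro y hy; simpa using hy
      | succ n ihn => intro y hy; rw [pow_succ', Module.End.mul_apply]; exact hZT _ (ihn y hy)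
    have h1 : c.T ((c.T ^ (a + 1)) z) = 0 := by
      rw [← Module.End.mul_apply, ← pow_succ']; exact hz
    obtain ⟨k', hk'⟩ := hfix _ (hpowZ _ z hzZ) h1
    set z' := z - (k' / k) • w with hz'
    have hz'Z : z' ∈ Z := Z.sub_mem hzZ (Z.smul_mem _ hwZ)
    have hz'0 : (c.T ^ (a + 1)) z' = 0 := by
      rw [hz', map_sub, map_smul, hk', hw]
      ext ω
      simp only [Pi.sub_apply, Pi.smul_apply, smul_eq_mul, Pi.zero_apply]
      field_simp
      ring
    have h2 := ih (c.T w) (hZT w hwZ) (hWT w hwW) k hk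
      (by rw [← Module.End.mul_apply, ← pow_succ]; exact hw) z' hz'Z hz'0
    have : z = z' + (k' / k) • w := by rw [hz']; abel
    rw [this]
    exact W.add_mem h2 (W.smul_mem _ hwW)

/-- `T` is nilpotent of index at most the dimension on an invariant subspace. -/
theorem T_pow_finrank (Y : Submodule (ZMod p) (Ω → ZMod p)) (hT : ∀ y ∈ Y, c.T y ∈ Y)
    {y : Ω → ZMod p} (hy : y ∈ Y) : (c.T ^ (finrank (ZMod p) Y)) y = 0 := by
  set f : Module.End (ZMod p) Y := c.T.restrict hT with hf
  have h1 : f ^ (p + finrank (ZMod p) Y) = 0 := by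
    rw [hf, Module.End.pow_restrict]
    ext v
    simp only [LinearMap.coe_restrict_apply, LinearMap.zero_apply, ZeroMemClass.coe_zero]
    rw [c.T_pow_of_le (m := p) (Nat.le_add_right _ _)]
    rw [T_pow_p]; rfl
  have h2 := Module.End.ker_pow_eq_ker_pow_finrank_of_le (f := f)
    (m := p + finrank (ZMod p) Y) (Nat.le_add_left _ _)
  rw [h1, LinearMap.ker_zero] at h2
  have h3 : (⟨y, hy⟩ : Y) ∈ LinearMap.ker (f ^ finrank (ZMod p) Y) := by rw [← h2]; trivial
  rw [LinearMap.mem_ker, hf, Module.End.pow_restrict] at h3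
  exact congrArg Subtype.val h3

end Cfg

end Cfsg.Agent.Lib.Helper58.TwoP
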