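import Mathlib
import Cfsg.Prelude.Def_Perm
import Cfsg.Agent.Lib.Helper58.TwoPMod2

set_option autoImplicit false
set_option linter.unusedSectionVars false

/-!
# Degree `2p`: no invariant subspace of dimension between `2` and `(p-1)/2`
-/

namespace Cfsg.Agent.Lib.Helper58.TwoP

open MulAction Cfsg Module

variable {G : Type*} {Ω : Type*} [Group G] [Fintype Ω] [DecidableEq Ω] [MulAction G Ω]
  {p : ℕ} [hpF : Fact p.Prime]

namespace Cfg

variable (c : Cfg G Ω p)

theorem T_mem_of_ginv (Y : Submodule (ZMod p) (Ω → ZMod p))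
    (hG : ∀ g : G, ∀ y ∈ Y, rho G Ω p g y ∈ Y) : ∀ y ∈ Y, c.T y ∈ Y := by
  intro y hy
  rw [T_apply]
  exact Y.sub_mem (hG _ y hy) hy

include c in
/-- The key proposition. -/
theorem no_small_dim (Y : Submodule (ZMod p) (Ω → ZMod p))
    (hG : ∀ g : G, ∀ y ∈ Y, rho G Ω p g y ∈ Y) (h2 : 2 ≤ finrank (ZMod p) Y)
    (hle : 2 * finrank (ZMod p) Y + 1 ≤ p) : False := by
  have hp := hpF.out
  set n := finrank (ZMod p) Y with hn
  have hT := c.T_mem_of_ginv Y hG
  have hnil : ∀ y ∈ Y, (c.T ^ n) y = 0 := fun y hy => c.T_pow_finrank Y hT hy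
  set Z : Submodule (ZMod p) (Ω → ZMod p) := Y * Y with hZ
  have hZG : ∀ g : G, ∀ z ∈ Z, rho G Ω p g z ∈ Z := by
    intro g z hz
    induction hz using Submodule.mul_induction_on' with
    | mem_mul_mem y hy y' hy' =>
      rw [rho_mul]
      exact Submodule.mul_mem_mul (hG g y hy) (hG g y' hy')
    | add z₁ _ z₂ _ h₁ h₂ => rw [map_add]; exact Z.add_mem h₁ h₂
  have hZsmall : ∀ z ∈ Z, (c.T ^ (p - 1)) z = 0 := by
    intro z hz
    induction hz using Submodule.mul_induction_on' with
    | mem_mul_mem y hy y' hy' =>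
      exact c.T_pow_mul_eq_zero (p - 1) n n y y' (by omega) (hnil y hy) (hnil y' hy')
    | add z₁ _ z₂ _ h₁ h₂ => rw [map_add, h₁, h₂, add_zero]
  have hYsmall : ∀ y ∈ Y, (c.T ^ (p - 1)) y = 0 := fun y hy =>
    c.T_pow_of_le (by omega) (hnil y hy)
  have fixY : ∀ y ∈ Y, c.T y = 0 → ∃ k : ZMod p, y = fun _ => k :=
    fun y hy h => c.fixed_const Y hG hYsmall hy h
  have fixZ : ∀ z ∈ Z, c.T z = 0 → ∃ k : ZMod p, z = fun _ => k :=
    fun z hz h => c.fixed_const Z hZG hZsmall hz h
  -- existence of `l`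
  have hstep : ∀ i : ℕ, ∀ y ∈ Y, (c.T ^ i) y = 0 →
      (∃ k : ZMod p, y = fun _ => k) ∨ ∃ l ∈ Y, c.T l = 1 := by
    intro i
    induction i with
    | zero =>
      intro y _ h
      simp only [pow_zero, Module.End.one_apply] at h
      exact Or.inl ⟨0, h⟩
    | succ i ih =>
      intro y hy h
      rcases ih (c.T y) (hT y hy) (by rw [← Module.End.mul_apply, ← pow_succ]; exact h) with
        ⟨k, hk⟩ | h'
      · by_cases hk0 : k = 0
        · left
          apply fixY y hy
          rw [hk, hk0]; rfl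
        · right
          refine ⟨k⁻¹ • y, Y.smul_mem _ hy, ?_⟩
          rw [map_smul, hk]
          ext ω
          simp [hk0]
      · exact Or.inr h'
  have hl : ∃ l ∈ Y, c.T l = 1 := by
    by_contra hcon
    have hconst : ∀ y ∈ Y, ∃ k : ZMod p, y = fun _ => k := fun y hy =>
      (hstep n y hy (hnil y hy)).resolve_right hcon
    have hsub : Y ≤ Submodule.span (ZMod p) {(1 : Ω → ZMod p)} := by
      intro y hy
      obtain ⟨k, rfl⟩ := hconst y hy
      rw [Submodule.mem_span_singleton]
      exact ⟨k, by ext ω; simp⟩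
    have h3 := Submodule.finrank_mono hsub
    have h4 := finrank_span_le_card (R := ZMod p) ({(1 : Ω → ZMod p)} : Set (Ω → ZMod p))
    simp only [Set.toFinset_singleton, Finset.card_singleton] at h4
    omega
  obtain ⟨l, hlY, hl⟩ := hl
  have h1Y : (1 : Ω → ZMod p) ∈ Y := hl ▸ hT l hlY
  have hYZ : Y ≤ Z := by
    intro y hy
    have := Submodule.mul_mem_mul h1Y hy
    rwa [one_mul] at this
  have hZT := c.T_mem_of_ginv Z hZG
  -- two points with the same value of `l`
  obtain ⟨ω, ω', hne, heq⟩ : ∃ ω ω' : Ω, ω ≠ ω' ∧ l ω = l ω' := by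
    apply Fintype.exists_ne_map_eq_of_card_lt l
    rw [ZMod.card, c.card_eq]
    have := hp.pos
    omega
  -- the functions agreeing on the paired points
  let PA : Submodule (ZMod p) (Ω → ZMod p) :=
    { carrier := {φ | ∀ m : ℕ, φ (c.x ^ m • ω) = φ (c.x ^ m • ω')}
      add_mem' := by
        intro φ ψ h₁ h₂ m
        simp only [Pi.add_apply, h₁ m, h₂ m]
      zero_mem' := fun m => rfl
      smul_mem' := by
        intro k φ h₁ m
        simp only [Pi.smul_apply, h₁ m] }
  have hPA : ∀ φ, φ ∈ PA ↔ ∀ m : ℕ, φ (c.x ^ m • ω) = φ (c.x ^ m • ω') := fun φ => Iff.rfl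
  have hPAT : ∀ w ∈ PA, c.T w ∈ PA := by
    intro w hw m
    rw [T_apply, Pi.sub_apply, Pi.sub_apply, X_apply, X_apply, ← mul_smul, ← mul_smul, ← pow_succ',
      hw (m + 1), hw m]
  have hPAmul : ∀ φ ∈ PA, ∀ ψ ∈ PA, φ * ψ ∈ PA := by
    intro φ h₁ ψ h₂ m
    simp only [Pi.mul_apply, h₁ m, h₂ m]
  have hPAconst : ∀ k : ZMod p, (fun _ : Ω => k) ∈ PA := fun k m => rfl
  have hlshift : ∀ (m : ℕ) (η : Ω), l (c.x ^ m • η) = l η + m := by
    intro m η
    induction m with
    | zero => simp
    | succ m ih =>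
      have h5 := congrFun hl (c.x ^ m • η)
      rw [T_apply, Pi.sub_apply, X_apply, ← mul_smul, ← pow_succ', Pi.one_apply] at h5
      rw [sub_eq_iff_eq_add.mp h5, ih]
      push_cast; ring
  have hlPA : l ∈ PA := by
    intro m
    rw [hlshift, hlshift, heq]
  -- main induction
  have hmain : ∀ a : ℕ, ∀ y ∈ Y, (c.T ^ a) y = 0 → y ∈ PA := by
    intro a
    induction a with
    | zero =>
      intro y _ h
      simp only [pow_zero, Module.End.one_apply] at h
      rw [h]; exact PA.zero_mem
    | succ a ih =>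
      intro y hy h
      have hpowY : ∀ (m : ℕ), ∀ y ∈ Y, (c.T ^ m) y ∈ Y := by
        intro m
        induction m with
        | zero => intro y hy; simpa using hy
        | succ m ihm => intro y hy; rw [pow_succ', Module.End.mul_apply]; exact hT _ (ihm y hy)
      obtain ⟨k, hk⟩ := fixY _ (hpowY a y hy)
        (by rw [← Module.End.mul_apply, ← pow_succ']; exact h)
      by_cases hk0 : k = 0
      · apply ih y hy
        rw [hk, hk0]; rfl
      · rcases Nat.eq_zero_or_pos a with rfl | ha
        · simp only [pow_zero, Module.End.one_apply] at hk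
          rw [hk]; exact hPAconst k
        · obtain ⟨a', rfl⟩ := Nat.exists_eq_succ_of_ne_zero ha.ne'
          set u := c.T y with hu
          have huY : u ∈ Y := hT y hy
          have hu0 : (c.T ^ (a' + 1)) u = 0 := by
            rw [hu, ← Module.End.mul_apply, ← pow_succ]; exact h
          have huk : (c.T ^ a') u = fun _ => k := by
            rw [hu, ← Module.End.mul_apply, ← pow_succ]; exact hk
          have huPA : u ∈ PA := ih u huY hu0
          have hw : (c.T ^ (a' + 1)) (l * u) = fun _ => ((a' + 1 : ℕ) : ZMod p) * k := by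
            rw [c.T_pow_succ_mul hl, hu0, mul_zero, zero_add, huk]
            ext η
            rw [Pi.smul_apply, X_apply, smul_eq_mul]
          have ha'p : a' + 1 < p := by
            by_contra hcon
            have : (c.T ^ (a' + 1)) y = 0 := c.T_pow_of_le (by omega) (hnil y hy)
            rw [this] at hk
            exact hk0 (congrFun hk ω).symm
          have hne0 : ((a' + 1 : ℕ) : ZMod p) * k ≠ 0 := by
            apply mul_ne_zero _ hk0
            intro h0
            rw [ZMod.natCast_eq_zero_iff] at h0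
            have := Nat.le_of_dvd (Nat.succ_pos a') h0
            omega
          exact c.mem_of_chain Z PA hZT fixZ hPAT (a' + 1) (l * u)
            (Submodule.mul_mem_mul hlY huY) (hPAmul l hlPA u huPA) _ hne0 hw y (hYZ hy) h
  -- conclusion by primitivity
  have hfinal := cong c.prim (Y : Set (Ω → ZMod p))
    (by
      intro g y hy
      have := hG g⁻¹ y hy
      have h6 : (fun ω => y (g • ω)) = rho G Ω p g⁻¹ y := by
        ext η; rw [rho_apply, inv_inv]
      rw [h6]; exact this)
    hne (by
      intro y hy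
      have := hmain n y hy (hnil y hy) 0
      simpa using this) l hlY
  have h7 := congrFun hl ω
  rw [T_apply, Pi.sub_apply, X_apply, hfinal (c.x • ω) ω, sub_self, Pi.one_apply] at h7
  exact zero_ne_one h7

end Cfg

end Cfsg.Agent.Lib.Helper58.TwoP
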