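import Mathlib
import Cfsg.Prelude.Def_Perm
import Cfsg.Agent.Lib.Helper58.TwoPMod3

set_option autoImplicit false
set_option linter.unusedSectionVars false

/-!
# Degree `2p`: the commuting algebra over `ZMod p`; eigenvectors, an idempotent
-/

namespace Cfsg.Agent.Lib.Helper58.TwoP

open MulAction Cfsg Module

variable {G : Type*} {Ω : Type*} [Group G] [Fintype Ω] [DecidableEq Ω] [MulAction G Ω]
  {p : ℕ} [hpF : Fact p.Prime]

/-- the commuting algebra -/
noncomputable def VV (G : Type*) (Ω : Type*) [Group G] [MulAction G Ω] (p : ℕ) :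
    Subalgebra (ZMod p) (Module.End (ZMod p) (Ω → ZMod p)) :=
  Subalgebra.centralizer (ZMod p) (Set.range (rho G Ω p))

theorem mem_VV_iff {ν : Module.End (ZMod p) (Ω → ZMod p)} :
    ν ∈ VV G Ω p ↔ ∀ (g : G) (φ : Ω → ZMod p), ν (rho G Ω p g φ) = rho G Ω p g (ν φ) := by
  rw [VV, Subalgebra.mem_centralizer_iff]
  constructor
  · intro h g φ
    exact (LinearMap.congr_fun (h _ ⟨g, rfl⟩) φ).symm
  · rintro h _ ⟨g, rfl⟩
    exact LinearMap.ext fun φ => (h g φ).symm

namespace Cfg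

variable (c : Cfg G Ω p)

theorem comm_X {ν : Module.End (ZMod p) (Ω → ZMod p)} (hν : ν ∈ VV G Ω p) (φ : Ω → ZMod p) :
    ν (c.X φ) = c.X (ν φ) := mem_VV_iff.mp hν _ φ

theorem comm_T {ν : Module.End (ZMod p) (Ω → ZMod p)} (hν : ν ∈ VV G Ω p) (φ : Ω → ZMod p) :
    ν (c.T φ) = c.T (ν φ) := by
  rw [T_apply, T_apply, map_sub, c.comm_X hν]

theorem comm_T_pow {ν : Module.End (ZMod p) (Ω → ZMod p)} (hν : ν ∈ VV G Ω p) (k : ℕ)
    (φ : Ω → ZMod p) : ν ((c.T ^ k) φ) = (c.T ^ k) (ν φ) := by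
  induction k generalizing φ with
  | zero => simp
  | succ k ih => rw [pow_succ, Module.End.mul_apply, ih, c.comm_T hν, Module.End.mul_apply]

include c in
/-- `1` is an eigenvector of every commuting operator. -/
theorem apply_one {ν : Module.End (ZMod p) (Ω → ZMod p)} (hν : ν ∈ VV G Ω p) :
    ν 1 = (ν 1 c.a) • (1 : Ω → ZMod p) := by
  have := c.prim.toIsPretransitive
  ext ω
  obtain ⟨g, hg⟩ := exists_smul_eq G ω c.a
  have h1 := congrFun (mem_VV_iff.mp hν g⁻¹ 1) ω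
  rw [rho_one', rho_apply, inv_inv, hg] at h1
  rw [h1]; simp

/-- `δ` is an eigenvector of every commuting operator. -/
theorem apply_δ {ν : Module.End (ZMod p) (Ω → ZMod p)} (hν : ν ∈ VV G Ω p) :
    ν c.δ = (ν c.u₁ c.a - ν c.u₁ c.b) • c.δ := by
  have h1 : c.T (ν c.u₁) = 0 := by rw [← c.comm_T hν, T_u₁, map_zero]
  have h2 := c.fixed_eq h1
  rw [δ, c.comm_T_pow hν, mem_VV_iff.mp hν]
  conv_lhs => rw [h2]
  rw [map_add, map_smul, rho_const, map_add, map_smul, T_pow_pred_const, zero_add]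

omit [Fintype Ω] [DecidableEq Ω] [Group G] [MulAction G Ω] in
theorem two_ne_zero' (hp2 : p ≠ 2) : (2 : ZMod p) ≠ 0 := by
  intro h
  have h1 : ((2 : ℕ) : ZMod p) = 0 := by exact_mod_cast h
  rw [ZMod.natCast_eq_zero_iff] at h1
  exact hp2 ((Nat.prime_dvd_prime_iff_eq hpF.out Nat.prime_two).mp h1)

theorem δ_eq : c.δ = (fun _ => - c.δ c.a) + (2 * c.δ c.a) • c.u₁ := by
  have h := c.fixed_eq c.T_δ
  rw [δ_b] at h
  conv_lhs => rw [h]
  congr 2
  ring

/-- fixed vectors are combinations of `1` and `δ` -/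
theorem fixed_span (hp2 : p ≠ 2) {v : Ω → ZMod p} (hv : c.T v = 0) :
    ∃ s t : ZMod p, v = s • (1 : Ω → ZMod p) + t • c.δ := by
  have h1 := c.fixed_eq hv
  have h2 := two_ne_zero' (p := p) hp2
  have h3 := c.δ_a
  refine ⟨v c.b + (v c.a - v c.b) / 2, (v c.a - v c.b) / (2 * c.δ c.a), ?_⟩
  ext ω
  have h4 : c.δ ω = - c.δ c.a + 2 * c.δ c.a * c.u₁ ω := by
    conv_lhs => rw [c.δ_eq]
    rfl
  have h5 : v ω = v c.b + (v c.a - v c.b) * c.u₁ ω := by
    conv_lhs => rw [h1]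
    rfl
  simp only [Pi.add_apply, Pi.smul_apply, smul_eq_mul, Pi.one_apply]
  rw [h4, h5]
  generalize c.δ c.a = d at *
  field_simp
  ring

theorem δ_ne_zero : c.δ ≠ 0 := fun h => c.δ_a (by rw [h]; rfl)

/-- A commuting operator killing `1` and `δ` lowers the `T`-degree. -/
theorem pow_apply_eq_zero (hp2 : p ≠ 2) {n : Module.End (ZMod p) (Ω → ZMod p)}
    (hn : n ∈ VV G Ω p) (h1 : n 1 = 0) (hδ : n c.δ = 0) :
    ∀ (i : ℕ) (v : Ω → ZMod p), (c.T ^ i) v = 0 → (n ^ i) v = 0 := by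
  intro i
  induction i with
  | zero => intro v hv; simpa using hv
  | succ i ih =>
    intro v hv
    rw [pow_succ, Module.End.mul_apply]
    apply ih
    rw [← c.comm_T_pow hn]
    obtain ⟨s, t, hst⟩ := c.fixed_span hp2 (v := (c.T ^ i) v)
      (by rw [← Module.End.mul_apply, ← pow_succ']; exact hv)
    rw [hst, map_add, map_smul, map_smul, h1, hδ, smul_zero, smul_zero, add_zero]

/-- The idempotent separating `1` and `δ`. -/
theorem exists_idempotent (hp2 : p ≠ 2) {ν₀ : Module.End (ZMod p) (Ω → ZMod p)}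
    (hν₀ : ν₀ ∈ VV G Ω p) (hne : ν₀ (1 - c.u₁) c.a ≠ 0) :
    ∃ e ∈ VV G Ω p, e * e = e ∧ e 1 = 1 ∧ e c.δ = 0 := by
  have hp := hpF.out
  set κ := ν₀ 1 c.a with hκ
  set ε := ν₀ c.u₁ c.a - ν₀ c.u₁ c.b with hε
  have h1 : ν₀ 1 = κ • (1 : Ω → ZMod p) := c.apply_one hν₀
  have hδ : ν₀ c.δ = ε • c.δ := c.apply_δ hν₀
  have hκε : κ - ε ≠ 0 := by
    intro h0
    have h0' : κ = ε := sub_eq_zero.mp h0
    apply hne
    obtain ⟨s, t, hst⟩ := c.fixed_span hp2 (v := 1 - c.u₁) (by rw [map_sub, T_one, T_u₁, sub_zero])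
    have h2 : ν₀ (1 - c.u₁) = κ • (1 - c.u₁) := by
      rw [hst, map_add, map_smul, map_smul, h1, hδ, ← h0', smul_add, smul_comm, smul_comm t]
    rw [h2, Pi.smul_apply, Pi.sub_apply, u₁_a]
    simp
  set ν₁ : Module.End (ZMod p) (Ω → ZMod p) := (κ - ε)⁻¹ • (ν₀ - ε • 1) with hν₁
  have hν₁V : ν₁ ∈ VV G Ω p :=
    Subalgebra.smul_mem _ (Subalgebra.sub_mem _ hν₀ (Subalgebra.smul_mem _ (Subalgebra.one_mem _) _)) _
  have h11 : ν₁ 1 = 1 := by
    rw [hν₁, LinearMap.smul_apply, LinearMap.sub_apply, h1, LinearMap.smul_apply,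
      Module.End.one_apply, ← sub_smul, smul_smul, inv_mul_cancel₀ hκε, one_smul]
  have h1δ : ν₁ c.δ = 0 := by
    rw [hν₁, LinearMap.smul_apply, LinearMap.sub_apply, hδ, LinearMap.smul_apply,
      Module.End.one_apply, sub_self, smul_zero]
  set n := ν₁ * ν₁ - ν₁ with hn
  have hnV : n ∈ VV G Ω p := Subalgebra.sub_mem _ (Subalgebra.mul_mem _ hν₁V hν₁V) hν₁V
  have hn1 : n 1 = 0 := by
    rw [hn, LinearMap.sub_apply, Module.End.mul_apply, h11, h11, sub_self]
  have hnδ : n c.δ = 0 := by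
    rw [hn, LinearMap.sub_apply, Module.End.mul_apply, h1δ, map_zero, sub_self]
  have hnp : n ^ p = 0 := by
    refine LinearMap.ext fun v => ?_
    exact c.pow_apply_eq_zero hp2 hnV hn1 hnδ p v (by rw [T_pow_p]; rfl)
  have hfrob : n ^ p = ν₁ ^ p * ν₁ ^ p - ν₁ ^ p := by
    have hpoly : ((Polynomial.X : Polynomial (ZMod p)) * Polynomial.X - Polynomial.X) ^ p =
        Polynomial.X ^ p * Polynomial.X ^ p - Polynomial.X ^ p := by
      rw [sub_pow_char, mul_pow]
    have h2 := congrArg (Polynomial.aeval ν₁) hpoly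
    simpa only [map_pow, map_sub, map_mul, Polynomial.aeval_X] using h2
  refine ⟨ν₁ ^ p, Subalgebra.pow_mem _ hν₁V p, ?_, ?_, ?_⟩
  · rw [hnp] at hfrob
    exact (sub_eq_zero.mp hfrob.symm)
  · have : ∀ k : ℕ, (ν₁ ^ k) 1 = 1 := by
      intro k
      induction k with
      | zero => simp
      | succ k ih => rw [pow_succ, Module.End.mul_apply, h11, ih]
    exact this p
  · have hpp : ν₁ ^ p = ν₁ ^ (p - 1) * ν₁ := by
      rw [← pow_succ, Nat.sub_add_cancel hp.one_le]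
    rw [hpp, Module.End.mul_apply, h1δ, map_zero]

/-- dimension bound for `T`-invariant subspaces with at most one dimensional fixed space -/
theorem finrank_le_p (U : Submodule (ZMod p) (Ω → ZMod p)) (hT : ∀ u ∈ U, c.T u ∈ U)
    (hfix : ∀ u ∈ U, c.T u = 0 → u c.a = 0 → u = 0) : finrank (ZMod p) U ≤ p := by
  let Φ : (Ω → ZMod p) →ₗ[ZMod p] (Fin p → ZMod p) :=
    LinearMap.pi fun j => (LinearMap.proj c.a) ∘ₗ (c.T ^ (j : ℕ))
  have hΦ : ∀ v j, Φ v j = (c.T ^ (j : ℕ)) v c.a := fun v j => rfl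
  have hpowU : ∀ (m : ℕ), ∀ y ∈ U, (c.T ^ m) y ∈ U := by
    intro m
    induction m with
    | zero => intro y hy; simpa using hy
    | succ m ihm => intro y hy; rw [pow_succ', Module.End.mul_apply]; exact hT _ (ihm y hy)
  have hinj : Function.Injective (Φ.domRestrict U) := by
    rw [← LinearMap.ker_eq_bot, LinearMap.ker_eq_bot']
    rintro ⟨v, hv⟩ h0
    have h0' : ∀ j : Fin p, (c.T ^ (j : ℕ)) v c.a = 0 := fun j => congrFun h0 j
    -- downward induction
    have hdown : ∀ k : ℕ, k ≤ p → (c.T ^ (p - k)) v = 0 := by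
      intro k
      induction k with
      | zero => intro _; rw [Nat.sub_zero, T_pow_p]; rfl
      | succ k ih =>
        intro hk
        have h1 := ih (by omega)
        apply hfix _ (hpowU _ v hv)
        · rw [← Module.End.mul_apply, ← pow_succ']
          have : p - (k + 1) + 1 = p - k := by omega
          rw [this]; exact h1
        · exact h0' ⟨p - (k + 1), by omega⟩
    have := hdown p le_rfl
    simp only [Nat.sub_self, pow_zero, Module.End.one_apply] at this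
    exact Subtype.ext this
  have := LinearMap.finrank_le_finrank_of_injective hinj
  simpa using this

/-- A `T`-invariant subspace which is not small has dimension at least `p`. -/
theorem p_le_finrank (K : Submodule (ZMod p) (Ω → ZMod p)) (hT : ∀ u ∈ K, c.T u ∈ K)
    {v : Ω → ZMod p} (hv : v ∈ K) (hne : (c.T ^ (p - 1)) v ≠ 0) : p ≤ finrank (ZMod p) K := by
  by_contra hcon
  exact hne (c.T_pow_of_le (by omega) (c.T_pow_finrank K hT hv))

end Cfg

end Cfsg.Agent.Lib.Helper58.TwoP
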