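import Mathlib
import Cfsg.Prelude.Def_Perm
import Cfsg.Agent.Lib.Helper58.TwoPMod4

set_option autoImplicit false
set_option linter.unusedSectionVars false

/-!
# Degree `2p`: commuting operators killing `1` and `δ` have constant matrix
-/

namespace Cfsg.Agent.Lib.Helper58.TwoP

open MulAction Cfsg Module

/-- rank–nullity on a subspace -/
theorem finrank_map_add_finrank_inf_ker {K V : Type*} [Field K] [AddCommGroup V] [Module K V]
    [FiniteDimensional K V] (ν : V →ₗ[K] V) (U : Submodule K V) :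
    finrank K (U.map ν) + finrank K (U ⊓ LinearMap.ker ν : Submodule K V) = finrank K U := by
  have h := LinearMap.finrank_range_add_finrank_ker (ν.domRestrict U)
  rw [LinearMap.range_domRestrict, LinearMap.ker_domRestrict] at h
  rw [← h, ← Submodule.map_comap_subtype, Submodule.finrank_map_subtype_eq]

variable {G : Type*} {Ω : Type*} [Group G] [Fintype Ω] [DecidableEq Ω] [MulAction G Ω]
  {p : ℕ} [hpF : Fact p.Prime]

namespace Cfg

variable (c : Cfg G Ω p)

theorem finrank_PQ (hp2 : p ≠ 2) {e : Module.End (ZMod p) (Ω → ZMod p)}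
    (he : e ∈ VV G Ω p) (hee : e * e = e) (he1 : e 1 = 1) (heδ : e c.δ = 0) :
    finrank (ZMod p) (LinearMap.range e) = p ∧ finrank (ZMod p) (LinearMap.ker e) = p := by
  have hP : finrank (ZMod p) (LinearMap.range e) ≤ p := by
    apply c.finrank_le_p
    · rintro _ ⟨w, rfl⟩
      exact ⟨c.T w, c.comm_T he w⟩
    · rintro _ ⟨w, rfl⟩ hT ha
      obtain ⟨s, t, hst⟩ := c.fixed_span hp2 hT
      have h1 : e (e w) = e w := by rw [← Module.End.mul_apply, hee]
      have h2 : e w = s • (1 : Ω → ZMod p) := by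
        rw [← h1, hst, map_add, map_smul, map_smul, he1, heδ, smul_zero, add_zero]
      rw [h2] at ha ⊢
      simp only [Pi.smul_apply, Pi.one_apply, smul_eq_mul, mul_one] at ha
      rw [ha, zero_smul]
  have hQ : finrank (ZMod p) (LinearMap.ker e) ≤ p := by
    apply c.finrank_le_p
    · intro u hu
      rw [LinearMap.mem_ker] at hu ⊢
      rw [c.comm_T he, hu, map_zero]
    · intro u hu hT ha
      rw [LinearMap.mem_ker] at hu
      obtain ⟨s, t, hst⟩ := c.fixed_span hp2 hT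
      have h2 : s • (1 : Ω → ZMod p) = 0 := by
        rw [← hu, hst, map_add, map_smul, map_smul, he1, heδ, smul_zero, add_zero]
      rw [h2, zero_add] at hst
      rw [hst] at ha ⊢
      simp only [Pi.smul_apply, smul_eq_mul] at ha
      rcases mul_eq_zero.mp ha with h3 | h3
      · rw [h3, zero_smul]
      · exact absurd h3 c.δ_a
  have hsum := LinearMap.finrank_range_add_finrank_ker e
  rw [Module.finrank_fintype_fun_eq_card, c.card_eq] at hsum
  omega

theorem T_pow_pred_rho_δ :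
    (c.T ^ (p - 1)) (rho G Ω p c.g₀ c.δ) = (2 * c.δ c.a) • c.δ := by
  have h := c.δ_eq
  calc (c.T ^ (p - 1)) (rho G Ω p c.g₀ c.δ)
      = (c.T ^ (p - 1)) (rho G Ω p c.g₀ ((fun _ => - c.δ c.a) + (2 * c.δ c.a) • c.u₁)) := by
        rw [← h]
    _ = (2 * c.δ c.a) • c.δ := by
        rw [map_add, map_smul, rho_const, map_add, map_smul, T_pow_pred_const, zero_add]
        rfl

theorem exists_fixed_ne_zero (U : Submodule (ZMod p) (Ω → ZMod p)) (hT : ∀ u ∈ U, c.T u ∈ U)
    (hne : U ≠ ⊥) : ∃ w ∈ U, w ≠ 0 ∧ c.T w = 0 := by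
  obtain ⟨w, hw, hw0⟩ := Submodule.exists_mem_ne_zero_of_ne_bot hne
  have key : ∀ i : ℕ, ∀ w ∈ U, w ≠ 0 → (c.T ^ i) w = 0 → ∃ w' ∈ U, w' ≠ 0 ∧ c.T w' = 0 := by
    intro i
    induction i with
    | zero => intro w _ hw0 h; exact absurd (by simpa using h) hw0
    | succ i ih =>
      intro w hw hw0 h
      by_cases hTw : c.T w = 0
      · exact ⟨w, hw, hw0, hTw⟩
      · exact ih (c.T w) (hT w hw) hTw (by rw [← Module.End.mul_apply, ← pow_succ]; exact h)
  exact key p w hw hw0 (by rw [T_pow_p]; rfl)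

include c in
/-- vectors of an invariant subspace of dimension at most one are constant -/
theorem const_of_finrank_le_one (S : Submodule (ZMod p) (Ω → ZMod p))
    (hG : ∀ g : G, ∀ v ∈ S, rho G Ω p g v ∈ S) (hS : finrank (ZMod p) S ≤ 1)
    {v : Ω → ZMod p} (hv : v ∈ S) : ∃ k : ZMod p, v = fun _ => k := by
  have hp := hpF.out.two_le
  have hT := c.T_mem_of_ginv S hG
  have h1 : ∀ v ∈ S, c.T v = 0 := by
    intro v hv
    have h2 := c.T_pow_of_le hS (c.T_pow_finrank S hT hv)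
    simpa using h2
  exact c.fixed_const S hG (fun v hv => c.T_pow_of_le (m := 1) (by omega) (by simpa using h1 v hv))
    hv (h1 v hv)

/-- A commuting operator killing `1` and `δ` has constant values. -/
theorem const_of_kill (hp5 : 5 ≤ p) {e ν : Module.End (ZMod p) (Ω → ZMod p)}
    (he : e ∈ VV G Ω p) (hee : e * e = e) (he1 : e 1 = 1) (heδ : e c.δ = 0)
    (hν : ν ∈ VV G Ω p) (hν1 : ν 1 = 0) (hνδ : ν c.δ = 0) (φ : Ω → ZMod p) :
    ∃ k : ZMod p, ν φ = fun _ => k := by
  have hp := hpF.out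
  have hp2 : p ≠ 2 := by omega
  obtain ⟨hP, hQ⟩ := c.finrank_PQ hp2 he hee he1 heδ
  set P := LinearMap.range e with hPdef
  set Q := LinearMap.ker e with hQdef
  have hPG : ∀ g : G, ∀ v ∈ P, rho G Ω p g v ∈ P := by
    rintro g _ ⟨w, rfl⟩
    exact ⟨rho G Ω p g w, mem_VV_iff.mp he g w⟩
  have hQG : ∀ g : G, ∀ v ∈ Q, rho G Ω p g v ∈ Q := by
    intro g v hv
    rw [hQdef, LinearMap.mem_ker] at hv ⊢
    rw [mem_VV_iff.mp he, hv, map_zero]
  have hkerG : ∀ g : G, ∀ v ∈ LinearMap.ker ν, rho G Ω p g v ∈ LinearMap.ker ν := by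
    intro g v hv
    rw [LinearMap.mem_ker] at hv ⊢
    rw [mem_VV_iff.mp hν, hv, map_zero]
  -- `ν` kills `Q`
  have hQν : ∀ v ∈ Q, ν v = 0 := by
    set K := Q ⊓ LinearMap.ker ν with hK
    have hKG : ∀ g : G, ∀ v ∈ K, rho G Ω p g v ∈ K :=
      fun g v hv => ⟨hQG g v hv.1, hkerG g v hv.2⟩
    have hδK : c.δ ∈ K := ⟨heδ, hνδ⟩
    have h1 : (c.T ^ (p - 1)) (rho G Ω p c.g₀ c.δ) ≠ 0 := by
      rw [T_pow_pred_rho_δ]
      exact smul_ne_zero (mul_ne_zero (two_ne_zero' hp2) c.δ_a) c.δ_ne_zero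
    have h2 := c.p_le_finrank K (c.T_mem_of_ginv K hKG) (hKG c.g₀ _ hδK) h1
    have h3 : K = Q := Submodule.eq_of_le_of_finrank_le inf_le_left (by rw [hQ]; exact h2)
    intro v hv
    have h4 : v ∈ K := by rw [h3]; exact hv
    exact h4.2
  set K₁ := P ⊓ LinearMap.ker ν with hK₁
  set S := P.map ν with hS
  have hdim : finrank (ZMod p) S + finrank (ZMod p) K₁ = p := by
    rw [hS, hK₁, finrank_map_add_finrank_inf_ker, hP]
  have hSG : ∀ g : G, ∀ v ∈ S, rho G Ω p g v ∈ S := by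
    rintro g _ ⟨w, hw, rfl⟩
    exact ⟨rho G Ω p g w, hPG g w hw, mem_VV_iff.mp hν g w⟩
  have hK₁G : ∀ g : G, ∀ v ∈ K₁, rho G Ω p g v ∈ K₁ :=
    fun g v hv => ⟨hPG g v hv.1, hkerG g v hv.2⟩
  have hνφ : ν φ ∈ S := by
    have h1 : φ - e φ ∈ Q := by
      rw [hQdef, LinearMap.mem_ker, map_sub, ← Module.End.mul_apply, hee, sub_self]
    have h2 : ν φ = ν (e φ) := by
      have h3 := hQν _ h1
      rw [map_sub, sub_eq_zero] at h3
      exact h3
    rw [h2]
    exact ⟨e φ, ⟨φ, rfl⟩, rfl⟩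
  have hodd : p % 2 = 1 := hp.eq_two_or_odd.resolve_left hp2
  have hSle : finrank (ZMod p) S ≤ 1 := by
    by_contra hS2
    push Not at hS2
    have hS3 : ¬ (2 * finrank (ZMod p) S + 1 ≤ p) := fun h => c.no_small_dim S hSG hS2 h
    have hK3 : 2 * finrank (ZMod p) K₁ + 1 ≤ p := by omega
    have hK4 : finrank (ZMod p) K₁ ≤ 1 := by
      by_contra h
      exact c.no_small_dim K₁ hK₁G (by omega) hK3
    have h1K : (1 : Ω → ZMod p) ∈ K₁ := ⟨⟨1, he1⟩, hν1⟩
    have hone : (1 : Ω → ZMod p) ≠ 0 := fun h => one_ne_zero (congrFun h c.a)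
    have hK5 : finrank (ZMod p) K₁ = 1 := by
      by_contra h
      have h0 : finrank (ZMod p) K₁ = 0 := by omega
      rw [Submodule.finrank_eq_zero] at h0
      rw [h0, Submodule.mem_bot] at h1K
      exact hone h1K
    -- `1 ∈ S`
    have hSne : S ≠ ⊥ := by
      intro h
      rw [h, finrank_bot] at hS2
      omega
    obtain ⟨w, hwS, hw0, hTw⟩ := c.exists_fixed_ne_zero S (c.T_mem_of_ginv S hSG) hSne
    obtain ⟨k, hk⟩ := c.fixed_const S hSG
      (fun v hv => c.T_pow_of_le (by omega) (c.T_pow_finrank S (c.T_mem_of_ginv S hSG) hv)) hwS hTw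
    have hk0 : k ≠ 0 := by
      rintro rfl
      exact hw0 hk
    obtain ⟨v₀, hv₀P, hv₀⟩ := hwS
    set L : Submodule (ZMod p) (Ω → ZMod p) := Submodule.span (ZMod p) {1} with hL
    set K₂ := P ⊓ L.comap ν with hK₂
    have hLG : ∀ g : G, ∀ v ∈ L, rho G Ω p g v ∈ L := by
      intro g v hv
      obtain ⟨s, rfl⟩ := Submodule.mem_span_singleton.mp hv
      rw [map_smul, rho_one']
      exact Submodule.mem_span_singleton.mpr ⟨s, rfl⟩
    have hK₂G : ∀ g : G, ∀ v ∈ K₂, rho G Ω p g v ∈ K₂ := by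
      intro g v hv
      refine ⟨hPG g v hv.1, ?_⟩
      change ν (rho G Ω p g v) ∈ L
      rw [mem_VV_iff.mp hν]
      exact hLG g _ hv.2
    have hA : K₂ ⊓ LinearMap.ker ν = K₁ := by
      apply le_antisymm
      · intro v hv
        exact ⟨hv.1.1, hv.2⟩
      · intro v hv
        refine ⟨⟨hv.1, ?_⟩, hv.2⟩
        change ν v ∈ L
        rw [LinearMap.mem_ker.mp hv.2]
        exact L.zero_mem
    have hB : K₂.map ν = L := by
      apply le_antisymm
      · rintro _ ⟨v, hv, rfl⟩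
        exact hv.2
      · rw [hL, Submodule.span_singleton_le_iff_mem]
        have h5 : ν (k⁻¹ • v₀) = 1 := by
          rw [map_smul, hv₀, hk]
          ext ω
          simp only [Pi.smul_apply, smul_eq_mul, Pi.one_apply]
          exact inv_mul_cancel₀ hk0
        refine ⟨k⁻¹ • v₀, ⟨P.smul_mem _ hv₀P, ?_⟩, h5⟩
        change ν (k⁻¹ • v₀) ∈ L
        rw [h5]
        exact Submodule.mem_span_singleton_self _
    have hK₂dim : finrank (ZMod p) K₂ = 2 := by
      rw [← finrank_map_add_finrank_inf_ker ν K₂, hA, hB, hK5, hL, finrank_span_singleton hone]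
    exact c.no_small_dim K₂ hK₂G (by omega) (by omega)
  exact c.const_of_finrank_le_one S hSG hSle hνφ

end Cfg

end Cfsg.Agent.Lib.Helper58.TwoP
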