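import Mathlib
import Cfsg.Prelude.Def_Perm
import Cfsg.Agent.Lib.Helper58.TwoPMod5
import Cfsg.Agent.Lib.Helper58.OrbitalOp

set_option autoImplicit false
set_option linter.unusedSectionVars false

/-!
# Degree `2p`: the rank is at most three (fixed point free element of order `p ≥ 5`)
-/

namespace Cfsg.Agent.Lib.Helper58.TwoP

open MulAction Cfsg Module

variable {G : Type*} {Ω : Type*} [Group G] [Fintype Ω] [DecidableEq Ω] [MulAction G Ω]
  {p : ℕ} [hpF : Fact p.Prime]

theorem toLin'_mem_VV (M : Matrix Ω Ω (ZMod p))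
    (hM : ∀ (g : G) x y, M (g • x) (g • y) = M x y) : Matrix.toLin' M ∈ VV G Ω p := by
  rw [mem_VV_iff]
  intro g φ
  ext x
  simp only [rho_apply, Matrix.toLin'_apply, Matrix.mulVec, dotProduct]
  refine Fintype.sum_equiv (MulAction.toPerm g⁻¹) _ _ fun y => ?_
  simp only [MulAction.toPerm_apply]
  rw [hM]

open scoped Classical in
theorem orbMat_left (R : Type*) [Zero R] [One R] (a b y : Ω) :
    orbMat G R a b a y = if y ∈ orbit (stabilizer G a) b then 1 else 0 := by
  simp only [orbMat]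
  congr 1
  apply propext
  constructor
  · rintro ⟨g, h1, h2⟩
    exact ⟨⟨g, h1⟩, h2⟩
  · rintro ⟨⟨g, h1⟩, h2⟩
    exact ⟨g, h1, h2⟩

namespace Cfg

variable (c : Cfg G Ω p)

/-- The second orbit of `x` is not contained in a suborbit, unless the rank is two. -/
theorem exists_notMem_orbit [Finite G] {d : Ω} (hda : d ≠ c.a)
    (hd : d ∉ orbit (stabilizer G c.a) c.b) :
    ∃ ω ∈ orb p c.x c.b, ω ∉ orbit (stabilizer G c.a) c.b := by
  classical
  have hp := hpF.out
  have := c.prim.toIsPretransitive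
  by_contra hcon
  push Not at hcon
  have h1 : ∀ h : stabilizer G c.a, h • d ∈ orb p c.x c.a := by
    intro h
    rcases c.mem_or (h • d) with h2 | h2
    · exact h2
    · exfalso
      have h3 := hcon _ h2
      apply hd
      have h4 := MulAction.mem_orbit_of_mem_orbit h⁻¹ h3
      rwa [inv_smul_smul] at h4
  have hpow : ∀ (i : ℕ) (ω : Ω), ω ∈ orb p c.x c.a → c.x ^ i • ω ∈ orb p c.x c.a := by
    intro i
    induction i with
    | zero => intro ω hω; simpa using hω
    | succ i ih =>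
      intro ω hω
      rw [pow_succ', mul_smul]
      exact (smul_mem_orb_iff hp c.free).mpr (ih ω hω)
  have h2 : ∀ g : G, g • c.a ∈ orb p c.x c.a → g • d ∈ orb p c.x c.a := by
    intro g hg
    obtain ⟨i, -, hi⟩ := mem_orb_iff.mp hg
    have h3 : (c.x ^ i)⁻¹ * g ∈ stabilizer G c.a := by
      rw [mem_stabilizer_iff, mul_smul, ← hi, inv_smul_smul]
    have h4 := hpow i _ (h1 ⟨_, h3⟩)
    change c.x ^ i • (((c.x ^ i)⁻¹ * g) • d) ∈ _ at h4
    rwa [mul_smul, smul_inv_smul] at h4
  obtain ⟨h, hh⟩ := exists_smul_eq G c.a d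
  have := Fintype.ofFinite G
  set Sa : Finset G := Finset.univ.filter fun g => g • c.a ∈ orb p c.x c.a with hSa
  set Sd : Finset G := Finset.univ.filter fun g => g • d ∈ orb p c.x c.a with hSd
  have hsub : Sa ⊆ Sd := by
    intro g hg
    rw [hSa, Finset.mem_filter] at hg
    rw [hSd, Finset.mem_filter]
    exact ⟨Finset.mem_univ _, h2 g hg.2⟩
  have hcard : Sd.card = Sa.card := by
    apply Finset.card_bij (fun g _ => g * h)
    · intro g hg
      rw [hSd, Finset.mem_filter] at hg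
      rw [hSa, Finset.mem_filter, mul_smul, hh]
      exact ⟨Finset.mem_univ _, hg.2⟩
    · intro g _ g' _ hgg
      exact mul_right_cancel hgg
    · intro g hg
      rw [hSa, Finset.mem_filter] at hg
      refine ⟨g * h⁻¹, ?_, by group⟩
      rw [hSd, Finset.mem_filter, ← hh, mul_smul, inv_smul_smul]
      exact ⟨Finset.mem_univ _, hg.2⟩
  have heq : Sa = Sd := Finset.eq_of_subset_of_card_le hsub hcard.le
  have h3 : ∀ g : G, c.u₁ (g • c.a) = c.u₁ (g • d) := by
    intro g
    have h4 : g ∈ Sa ↔ g ∈ Sd := by rw [heq]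
    rw [hSa, hSd, Finset.mem_filter, Finset.mem_filter] at h4
    simp only [Finset.mem_univ, true_and] at h4
    simp only [u₁, h4]
  have h5 := cong c.prim (Set.range fun g : G => fun ω => c.u₁ (g • ω))
    (by
      rintro g _ ⟨k, rfl⟩
      exact ⟨k * g, by ext ω; simp only [mul_smul]⟩)
    (Ne.symm hda) (by
      rintro _ ⟨k, rfl⟩
      exact h3 k) _ ⟨1, rfl⟩ c.a c.b
  simp only [one_smul] at h5
  rw [u₁_a, u₁_b] at h5
  exact one_ne_zero h5

/-- The idempotent exists as soon as the rank is at least three. -/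
theorem exists_idempotent' [Finite G] (hp2 : p ≠ 2) {d : Ω} (hda : d ≠ c.a)
    (hd : d ∉ orbit (stabilizer G c.a) c.b) :
    ∃ e ∈ VV G Ω p, e * e = e ∧ e 1 = 1 ∧ e c.δ = 0 := by
  classical
  have hp := hpF.out
  obtain ⟨ω₀, hω₀, hω₀'⟩ := c.exists_notMem_orbit hda hd
  apply c.exists_idempotent hp2
    (toLin'_mem_VV (G := G) (orbMat G (ZMod p) c.a c.b) (orbMat_smul_smul G (ZMod p) c.a c.b))
  simp only [Matrix.toLin'_apply, Matrix.mulVec, dotProduct, orbMat_left, Pi.sub_apply,
    Pi.one_apply, u₁]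
  set F : Finset Ω := Finset.univ.filter
    fun y => y ∈ orbit (stabilizer G c.a) c.b ∧ y ∉ orb p c.x c.a with hF
  have h1 : ∑ y, (if y ∈ orbit (stabilizer G c.a) c.b then (1 : ZMod p) else 0) *
      (1 - if y ∈ orb p c.x c.a then 1 else 0) = (F.card : ZMod p) := by
    rw [hF, ← Finset.sum_boole]
    refine Finset.sum_congr rfl fun y _ => ?_
    by_cases h2 : y ∈ orbit (stabilizer G c.a) c.b <;> by_cases h3 : y ∈ orb p c.x c.a <;>
      simp [h2, h3]
  rw [h1]
  have hpos : 0 < F.card := by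
    apply Finset.card_pos.mpr
    exact ⟨c.b, by
      rw [hF, Finset.mem_filter]
      exact ⟨Finset.mem_univ _, mem_orbit_self _, c.b_notMem⟩⟩
  have hlt : F.card < p := by
    rw [← card_orb hp c.free c.b]
    apply Finset.card_lt_card
    rw [Finset.ssubset_iff_of_subset]
    · refine ⟨ω₀, hω₀, fun h => ?_⟩
      rw [hF, Finset.mem_filter] at h
      exact hω₀' h.2.1
    · intro y hy
      rw [hF, Finset.mem_filter] at hy
      exact (c.mem_or y).resolve_left hy.2.2
  intro hzero
  rw [ZMod.natCast_eq_zero_iff] at hzero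
  have := Nat.le_of_dvd hpos hzero
  omega

/-- The rank is at most three. -/
theorem rank_le_three [Finite G] (hp5 : 5 ≤ p) (b : Fin 3 → Ω) (hb : ∀ i, b i ≠ c.a)
    (hbb : ∀ i j, b j ∈ orbit (stabilizer G c.a) (b i) → i = j) : False := by
  classical
  have hp := hpF.out
  have hp2 : p ≠ 2 := by omega
  have := c.prim.toIsPretransitive
  -- some `b i` is not in the suborbit of `c.b`
  have hex : ∃ d : Ω, d ≠ c.a ∧ d ∉ orbit (stabilizer G c.a) c.b := by
    by_cases h0 : b 0 ∈ orbit (stabilizer G c.a) c.b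
    · refine ⟨b 1, hb 1, fun h1 => ?_⟩
      have h2 : b 1 ∈ orbit (stabilizer G c.a) (b 0) := by
        rw [orbit_eq_iff.mpr h0]; exact h1
      have := hbb 0 1 h2
      omega
    · exact ⟨b 0, hb 0, h0⟩
  obtain ⟨d, hda, hd⟩ := hex
  obtain ⟨e, he, hee, he1, heδ⟩ := c.exists_idempotent' hp2 hda hd
  set A : Fin 3 → Module.End (ZMod p) (Ω → ZMod p) :=
    fun i => Matrix.toLin' (orbMat G (ZMod p) c.a (b i)) with hA
  have hAV : ∀ i, A i ∈ VV G Ω p := fun i =>
    toLin'_mem_VV (G := G) _ (orbMat_smul_smul G (ZMod p) c.a (b i))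
  let L : (Fin 3 → ZMod p) →ₗ[ZMod p] Module.End (ZMod p) (Ω → ZMod p) :=
    Fintype.linearCombination (ZMod p) A
  have hL : ∀ t, L t = ∑ i, t i • A i := fun t => Fintype.linearCombination_apply (ZMod p) A t
  have hLV : ∀ t, L t ∈ VV G Ω p := by
    intro t
    rw [hL]
    exact Subalgebra.sum_mem _ fun i _ => Subalgebra.smul_mem _ (hAV i) _
  let f : (Fin 3 → ZMod p) →ₗ[ZMod p] (ZMod p × ZMod p) :=
    LinearMap.prod (LinearMap.proj c.a ∘ₗ LinearMap.applyₗ (1 : Ω → ZMod p) ∘ₗ L)
      (LinearMap.proj c.a ∘ₗ LinearMap.applyₗ c.δ ∘ₗ L)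
  have hf : ∀ t, f t = (L t 1 c.a, L t c.δ c.a) := fun t => rfl
  have hker : LinearMap.ker f ≠ ⊥ := by
    apply LinearMap.ker_ne_bot_of_finrank_lt
    simp
  obtain ⟨t, ht, ht0⟩ := Submodule.exists_mem_ne_zero_of_ne_bot hker
  rw [LinearMap.mem_ker, hf, Prod.mk_eq_zero] at ht
  have hν1 : L t 1 = 0 := by
    rw [c.apply_one (hLV t), ht.1, zero_smul]
  have hνδ : L t c.δ = 0 := by
    have h1 := c.apply_δ (hLV t)
    have h2 := congrFun h1 c.a
    rw [ht.2, Pi.smul_apply, smul_eq_mul] at h2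
    rcases mul_eq_zero.mp h2.symm with h3 | h3
    · rw [h1, h3, zero_smul]
    · exact absurd h3 c.δ_a
  have hconst := c.const_of_kill hp5 he hee he1 heδ (hLV t) hν1 hνδ
  -- entries
  have hentry : ∀ y, L t (Pi.single y 1) c.a =
      ∑ i, t i * (if y ∈ orbit (stabilizer G c.a) (b i) then 1 else 0) := by
    intro y
    rw [hL, LinearMap.sum_apply, Finset.sum_apply]
    refine Finset.sum_congr rfl fun i _ => ?_
    rw [LinearMap.smul_apply, Pi.smul_apply, smul_eq_mul, hA]
    simp only [Matrix.toLin'_apply, Matrix.mulVec_single_one, Matrix.col_apply, orbMat_left]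
  have hinv : ∀ y, L t (Pi.single y 1) c.a = L t (Pi.single c.a 1) c.a := by
    intro y
    obtain ⟨g, hg⟩ := exists_smul_eq G c.a y
    have h1 : (Pi.single y 1 : Ω → ZMod p) = rho G Ω p g (Pi.single c.a 1) := by
      ext z
      rw [rho_apply, Pi.single_apply, Pi.single_apply, ← hg]
      simp only [inv_smul_eq_iff]
    rw [h1, mem_VV_iff.mp (hLV t), rho_apply]
    obtain ⟨k, hk⟩ := hconst (Pi.single c.a 1)
    rw [hk]
  have hzero : L t (Pi.single c.a 1) c.a = 0 := by
    rw [hentry]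
    apply Finset.sum_eq_zero
    intro i _
    rw [if_neg, mul_zero]
    rintro ⟨h, hh⟩
    apply hb i
    have h1 : (h : G) • b i = (h : G) • c.a := (hh : (h : G) • b i = c.a).trans h.2.symm
    exact smul_left_cancel _ h1
  apply ht0
  ext j
  have h1 := hinv (b j)
  rw [hzero, hentry, Finset.sum_eq_single j] at h1
  · rw [if_pos (mem_orbit_self _), mul_one] at h1
    exact h1
  · intro i _ hij
    rw [if_neg, mul_zero]
    exact fun h => hij (hbb i j h)
  · intro h
    exact absurd (Finset.mem_univ j) h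

end Cfg

end Cfsg.Agent.Lib.Helper58.TwoP
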