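import Mathlib
import Cfsg.Prelude.Def_Characters
import Cfsg.Prelude.Def_Perm
import Cfsg.Agent.Lib.Helper58.TwoPChar1
import Cfsg.Agent.Lib.Helper58.TwoPMod6

set_option autoImplicit false
set_option linter.unusedSectionVars false

/-!
# Degree `2p`, rank three: the degrees of the constituents are `p - 1` and `p`
-/

namespace Cfsg.Agent.Lib.Helper58.TwoP

open MulAction Cfsg Cfsg.Agent.Lib.Helper3 Cfsg.Agent.Lib.Helper58

theorem arith (p : ℕ) (hp : p.Prime) (hp2 : p ≠ 2) (k β d₁ d₂ : ℕ) (lam mu : ℤ) (r s : ℂ)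
    (hβ0 : 0 < β) (hβp : β < p) (hd : 1 + d₁ + d₂ = 2 * p) (hd2 : 0 < d₂)
    (h1 : (k:ℂ) + d₁ * r + d₂ * s = 0)
    (h3 : (lam:ℂ) - (r + s) = mu)
    (h4 : (k:ℂ)^2 - (r+s) * k + r * s = 2 * p * mu)
    (h5 : s = (k:ℂ) - 2 * β) : d₂ = p := by
  set r' : ℤ := lam - mu - (k - 2 * β) with hr'
  have hr : r = (r' : ℂ) := by
    rw [hr']; push_cast; linear_combination -h3 - h5
  have hpZ : Prime (p : ℤ) := Nat.prime_iff_prime_int.mp hp
  have hβ : ¬ (p : ℤ) ∣ (β : ℤ) := by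
    intro h
    have h' : p ∣ β := by exact_mod_cast h
    have := Nat.le_of_dvd hβ0 h'
    omega
  have h2 : ¬ (p : ℤ) ∣ (2 : ℤ) := by
    intro h
    have h' : p ∣ 2 := by exact_mod_cast h
    exact hp2 ((Nat.prime_dvd_prime_iff_eq hp Nat.prime_two).mp h')
  have e1 : ((k:ℤ) - r') * β = p * mu := by
    have h6 : ((k:ℂ) - r') * β = p * mu := by
      rw [hr, h5] at h4
      linear_combination (1/2) * h4
    exact_mod_cast h6
  have hdZ : (1:ℤ) + d₁ + d₂ = 2 * p := by exact_mod_cast hd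
  have e2 : (d₁:ℤ) * ((k:ℤ) - r') + d₂ * (2 * β) = 2 * p * k := by
    have h6 : (d₁:ℂ) * ((k:ℂ) - r') + d₂ * (2 * β) = 2 * p * k := by
      have hdC : (1:ℂ) + d₁ + d₂ = 2 * p := by exact_mod_cast hd
      rw [hr, h5] at h1
      linear_combination (k:ℂ) * hdC - h1
    exact_mod_cast h6
  have e3 : (p : ℤ) ∣ (k:ℤ) - r' := by
    have h6 : (p : ℤ) ∣ ((k:ℤ) - r') * β := ⟨mu, e1⟩
    exact (hpZ.dvd_or_dvd h6).resolve_right hβ
  have e4 : (p : ℤ) ∣ (d₂ : ℤ) * (2 * β) := by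
    have h6 : (d₂ : ℤ) * (2 * β) = 2 * p * k - d₁ * ((k:ℤ) - r') := by linarith
    rw [h6]
    exact dvd_sub ⟨2 * k, by ring⟩ (Dvd.dvd.mul_left e3 _)
  have e5 : (p : ℤ) ∣ (d₂ : ℤ) := by
    rcases hpZ.dvd_or_dvd e4 with h | h
    · exact h
    · rcases hpZ.dvd_or_dvd h with h | h
      · exact absurd h h2
      · exact absurd h hβ
  have e6 : p ∣ d₂ := by exact_mod_cast e5
  obtain ⟨c, hc⟩ := e6
  have hc1 : c = 1 := by
    have hc0 : c ≠ 0 := by
      rintro rfl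
      omega
    have hc2 : c < 2 := by
      by_contra hcon
      push Not at hcon
      have : p * 2 ≤ p * c := Nat.mul_le_mul_left p hcon
      omega
    omega
  rw [hc, hc1, mul_one]

variable {G : Type*} {Ω : Type*} [Group G] [Fintype Ω] [DecidableEq Ω] [MulAction G Ω]
  {p : ℕ} [hpF : Fact p.Prime]

namespace Cfg

variable (c : Cfg G Ω p)

theorem b_ne_a : c.b ≠ c.a := fun h =>
  c.b_notMem (by rw [h]; exact self_mem_orb hpF.out c.free c.a)

/-- number of neighbours in the second orbit -/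
noncomputable def NN (M : Matrix Ω Ω ℂ) (ω : Ω) : ℂ := ∑ y ∈ orb p c.x c.b, M ω y

theorem NN_smul (M : Matrix Ω Ω ℂ) (hM : ∀ (g : G) x y, M (g • x) (g • y) = M x y) (ω : Ω) :
    c.NN M (c.x • ω) = c.NN M ω := by
  rw [NN, NN]
  symm
  refine Finset.sum_equiv (MulAction.toPerm c.x) (fun y => ?_) (fun y _ => ?_)
  · rw [MulAction.toPerm_apply, smul_mem_orb_iff hpF.out c.free]
  · rw [MulAction.toPerm_apply, hM]

theorem sum_split (f : Ω → ℂ) :
    ∑ y, f y = ∑ y ∈ orb p c.x c.a, f y + ∑ y ∈ orb p c.x c.b, f y := by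
  rw [← c.union, Finset.sum_union c.disj]

/-- the vector `u₁ - u₂` -/
noncomputable def dd : Ω → ℂ := fun ω => if ω ∈ orb p c.x c.a then 1 else -1

theorem sum_dd : ∑ y, c.dd y = 0 := by
  rw [c.sum_split]
  have h1 : ∑ y ∈ orb p c.x c.a, c.dd y = ∑ y ∈ orb p c.x c.a, (1 : ℂ) :=
    Finset.sum_congr rfl fun y hy => by rw [dd, if_pos hy]
  have h2 : ∑ y ∈ orb p c.x c.b, c.dd y = ∑ y ∈ orb p c.x c.b, (-1 : ℂ) :=
    Finset.sum_congr rfl fun y hy => by
      rw [dd, if_neg (fun h => (Finset.disjoint_left.mp c.disj h) hy)]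
  rw [h1, h2, Finset.sum_const, Finset.sum_const, card_orb hpF.out c.free,
    card_orb hpF.out c.free]
  simp

/-- `u₁ - u₂` is an eigenvector of a symmetric invariant matrix with constant row sums. -/
theorem mulVec_dd (M : Matrix Ω Ω ℂ) (hM : ∀ (g : G) x y, M (g • x) (g • y) = M x y)
    (hsym : M.transpose = M) (k : ℂ) (hk : ∀ x, ∑ y, M x y = k) :
    M.mulVec c.dd = (k - 2 * c.NN M c.a) • c.dd := by
  have hp := hpF.out
  have hp0 : (p : ℂ) ≠ 0 := by exact_mod_cast hp.pos.ne'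
  have hN1 : ∀ ω ∈ orb p c.x c.a, c.NN M ω = c.NN M c.a :=
    fun ω hω => eq_of_mem_orb (c.NN_smul M hM) hω
  have hN2 : ∀ ω ∈ orb p c.x c.b, c.NN M ω = c.NN M c.b :=
    fun ω hω => eq_of_mem_orb (c.NN_smul M hM) hω
  have hrow : ∀ ω, ∑ y ∈ orb p c.x c.a, M ω y = k - c.NN M ω := by
    intro ω
    have := hk ω
    rw [c.sum_split] at this
    rw [NN]
    linear_combination this
  have hcount : (p : ℂ) * c.NN M c.a = p * (k - c.NN M c.b) := by
    have h1 : ∑ ω ∈ orb p c.x c.a, c.NN M ω = p * c.NN M c.a := by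
      rw [Finset.sum_congr rfl hN1, Finset.sum_const, card_orb hp c.free]
      simp
    have h2 : ∑ ω ∈ orb p c.x c.a, c.NN M ω = ∑ y ∈ orb p c.x c.b, (k - c.NN M y) := by
      calc ∑ ω ∈ orb p c.x c.a, c.NN M ω
          = ∑ ω ∈ orb p c.x c.a, ∑ y ∈ orb p c.x c.b, M ω y := rfl
        _ = ∑ y ∈ orb p c.x c.b, ∑ ω ∈ orb p c.x c.a, M ω y := Finset.sum_comm
        _ = ∑ y ∈ orb p c.x c.b, (k - c.NN M y) := by
          refine Finset.sum_congr rfl fun y _ => ?_
          rw [← hrow]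
          refine Finset.sum_congr rfl fun ω _ => ?_
          exact congrFun (congrFun hsym y) ω
    have h3 : ∑ y ∈ orb p c.x c.b, (k - c.NN M y) = p * (k - c.NN M c.b) := by
      rw [Finset.sum_congr rfl (fun y hy => by rw [hN2 y hy]), Finset.sum_const,
        card_orb hp c.free]
      simp
    rw [← h1, h2, h3]
  have hNb : c.NN M c.b = k - c.NN M c.a := by
    have := mul_left_cancel₀ hp0 hcount
    linear_combination this
  have hmv : ∀ ω, M.mulVec c.dd ω = k - 2 * c.NN M ω := by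
    intro ω
    rw [Matrix.mulVec, dotProduct, c.sum_split]
    have h1 : ∑ y ∈ orb p c.x c.a, M ω y * c.dd y = ∑ y ∈ orb p c.x c.a, M ω y :=
      Finset.sum_congr rfl fun y hy => by rw [dd, if_pos hy, mul_one]
    have h2 : ∑ y ∈ orb p c.x c.b, M ω y * c.dd y = - c.NN M ω := by
      rw [NN, ← Finset.sum_neg_distrib]
      exact Finset.sum_congr rfl fun y hy => by
        rw [dd, if_neg (fun h => (Finset.disjoint_left.mp c.disj h) hy)]; ring
    rw [h1, h2, hrow]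
    ring
  ext ω
  rw [hmv, Pi.smul_apply, smul_eq_mul]
  rcases c.mem_or ω with h | h
  · rw [hN1 ω h, dd, if_pos h, mul_one]
  · rw [hN2 ω h, hNb, dd, if_neg (fun h' => (Finset.disjoint_left.mp c.disj h') h)]
    ring

/-- The degrees of the non principal constituents. -/
theorem degrees [Fintype G] (hp2 : p ≠ 2) (χ₁ χ₂ : G → ℂ) (h₁ : IsIrrCharacter G χ₁)
    (h₂ : IsIrrCharacter G χ₂)
    (hπ : (fun g : G => (Nat.card (MulAction.fixedBy Ω g) : ℂ)) = fun g => 1 + χ₁ g + χ₂ g)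
    {d : Ω} (hda : d ≠ c.a) (hd : d ∉ orbit (stabilizer G c.a) c.b) :
    (χ₁ 1 = (p : ℂ) - 1 ∧ χ₂ 1 = p) ∨ (χ₂ 1 = (p : ℂ) - 1 ∧ χ₁ 1 = p) := by
  classical
  have hp := hpF.out
  have := c.prim.toIsPretransitive
  obtain ⟨d₁, hd₁⟩ := IsCharacter.apply_one_eq_natCast (IsIrrCharacter.isCharacter h₁)
  obtain ⟨d₂, hd₂⟩ := IsCharacter.apply_one_eq_natCast (IsIrrCharacter.isCharacter h₂)
  have hd₁0 : 0 < d₁ := by
    rcases Nat.eq_zero_or_pos d₁ with h | h
    · exact absurd (by rw [hd₁, h]; simp) (IsIrrCharacter.apply_one_ne_zero h₁)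
    · exact h
  have hd₂0 : 0 < d₂ := by
    rcases Nat.eq_zero_or_pos d₂ with h | h
    · exact absurd (by rw [hd₂, h]; simp) (IsIrrCharacter.apply_one_ne_zero h₂)
    · exact h
  have hsum : 1 + d₁ + d₂ = 2 * p := by
    have h1 := congrFun hπ 1
    have h2 : Nat.card (MulAction.fixedBy Ω (1 : G)) = 2 * p := by
      rw [MulAction.fixedBy_one_eq_univ, Nat.card_coe_set_eq, Set.ncard_univ,
        Nat.card_eq_fintype_card, c.card_eq]
    simp only [h2, hd₁, hd₂] at h1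
    exact_mod_cast h1.symm
  have hne : χ₁ 1 ≠ χ₂ 1 := by
    rw [hd₁, hd₂]
    intro h
    have : d₁ = d₂ := by exact_mod_cast h
    omega
  obtain ⟨r, s, γ, hsym, htr, hquad⟩ := spectral2 c.a χ₁ χ₂ h₁ h₂ hπ hne c.b c.b_ne_a
  set k := Nat.card (orbit (stabilizer G c.a) c.b) with hk
  set M := orbMat G ℂ c.a c.b with hM
  have hMinv : ∀ (g : G) x y, M (g • x) (g • y) = M x y := orbMat_smul_smul G ℂ c.a c.b
  have hrow : ∀ x, ∑ y, M x y = (k : ℂ) := orbMat_row_sum G c.a c.b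
  -- `β`
  set F : Finset Ω := (orb p c.x c.b).filter fun y => y ∈ orbit (stabilizer G c.a) c.b with hF
  have hβ : c.NN M c.a = (F.card : ℂ) := by
    rw [NN, hF, Finset.card_filter]
    push_cast
    refine Finset.sum_congr rfl fun y _ => ?_
    rw [hM, orbMat_left]
  have hβ0 : 0 < F.card := Finset.card_pos.mpr ⟨c.b, by
    rw [hF, Finset.mem_filter]
    exact ⟨self_mem_orb hp c.free c.b, mem_orbit_self _⟩⟩
  have hβp : F.card < p := by
    obtain ⟨ω₀, hω₀, hω₀'⟩ := c.exists_notMem_orbit hda hd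
    rw [← card_orb hp c.free c.b]
    apply Finset.card_lt_card
    rw [Finset.ssubset_iff_of_subset (Finset.filter_subset _ _)]
    refine ⟨ω₀, hω₀, fun h => ?_⟩
    rw [Finset.mem_filter] at h
    exact hω₀' h.2
  have hev := c.mulVec_dd M hMinv hsym k hrow
  rw [hβ] at hev
  set ε : ℂ := (k : ℂ) - 2 * F.card with hε
  have hmat : M * M - (r + s) • M + (r * s) • (1 : Matrix Ω Ω ℂ) = Matrix.of (fun _ _ => γ) := by
    ext x y
    simpa using hquad x y
  have hroot : (ε - r) * (ε - s) = 0 := by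
    have h1 := congrFun (congrArg (fun X : Matrix Ω Ω ℂ => X.mulVec c.dd) hmat) c.a
    simp only [Matrix.add_mulVec, Matrix.sub_mulVec, Matrix.smul_mulVec, Matrix.one_mulVec,
      ← Matrix.mulVec_mulVec, hev, Matrix.mulVec_smul, Pi.add_apply, Pi.sub_apply,
      Pi.smul_apply, smul_eq_mul] at h1
    have h2 : (Matrix.of fun _ _ => γ : Matrix Ω Ω ℂ).mulVec c.dd c.a = 0 := by
      simp only [Matrix.mulVec, dotProduct, Matrix.of_apply]
      rw [← Finset.mul_sum, c.sum_dd, mul_zero]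
    have h3 : c.dd c.a = 1 := by rw [dd, if_pos (self_mem_orb hp c.free c.a)]
    rw [h2, h3] at h1
    linear_combination h1
  have hone : M.mulVec (fun _ => 1) = (k : ℂ) • (fun _ => (1 : ℂ)) := by
    ext x
    simp only [Matrix.mulVec, dotProduct, mul_one, Pi.smul_apply, smul_eq_mul]
    exact hrow x
  have h4 : (k:ℂ)^2 - (r+s) * k + r * s = 2 * p * γ := by
    have h1 := congrFun (congrArg (fun X : Matrix Ω Ω ℂ => X.mulVec (fun _ => 1)) hmat) c.a
    simp only [Matrix.add_mulVec, Matrix.sub_mulVec, Matrix.smul_mulVec, Matrix.one_mulVec,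
      ← Matrix.mulVec_mulVec, hone, Matrix.mulVec_smul, Pi.add_apply, Pi.sub_apply,
      Pi.smul_apply, smul_eq_mul] at h1
    have h2 : (Matrix.of fun _ _ => γ : Matrix Ω Ω ℂ).mulVec (fun _ => 1) c.a = 2 * p * γ := by
      simp only [Matrix.mulVec, dotProduct, Matrix.of_apply, mul_one, Finset.sum_const,
        Finset.card_univ, c.card_eq]
      simp
    rw [h2] at h1
    linear_combination h1
  have hMM : M * M = (orbMat G ℤ c.a c.b * orbMat G ℤ c.a c.b).map (Int.castRingHom ℂ) := by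
    rw [Matrix.map_mul, ← orbMat_map]
  have hint : ∀ x y, (M * M) x y = (((orbMat G ℤ c.a c.b * orbMat G ℤ c.a c.b) x y : ℤ) : ℂ) := by
    intro x y
    rw [hMM]
    rfl
  set lam : ℤ := (orbMat G ℤ c.a c.b * orbMat G ℤ c.a c.b) c.a c.b with hlam
  set mu : ℤ := (orbMat G ℤ c.a c.b * orbMat G ℤ c.a c.b) c.a d with hmu
  have hγ : γ = mu := by
    have h1 := hquad c.a d
    have h2 : M c.a d = 0 := by rw [hM, orbMat_left, if_neg hd]
    rw [hint, h2, Matrix.one_apply_ne (Ne.symm hda)] at h1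
    rw [← h1]; ring
  have h3 : (lam : ℂ) - (r + s) = mu := by
    have h1 := hquad c.a c.b
    rw [hint, hM, orbMat_self, Matrix.one_apply_ne (Ne.symm c.b_ne_a)] at h1
    rw [← hγ, ← h1]; ring
  rw [hγ] at h4
  rw [hd₁, hd₂] at htr ⊢
  rcases mul_eq_zero.mp hroot with h5 | h5
  · -- `r = ε`
    right
    have h6 := arith p hp hp2 k F.card d₂ d₁ lam mu s r hβ0 hβp (by omega) hd₁0
      (by linear_combination htr) (by linear_combination h3) (by linear_combination h4)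
      (by linear_combination -h5)
    have h7 : d₂ + 1 = p := by omega
    refine ⟨?_, by rw [h6]⟩
    rw [← h7]; push_cast; ring
  · left
    have h6 := arith p hp hp2 k F.card d₁ d₂ lam mu r s hβ0 hβp hsum hd₂0 htr h3 h4
      (by linear_combination -h5)
    have h7 : d₁ + 1 = p := by omega
    refine ⟨?_, by rw [h6]⟩
    rw [← h7]; push_cast; ring

/-- The conclusion of Wielandt's theorem in the rank three case. -/
theorem conclusion [Fintype G] (hp2 : p ≠ 2)
    (hrank : Nat.card (orbitRel.Quotient (stabilizer G c.a) Ω) = 3) :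
    ∃ a : ℕ, 0 < a ∧ p = 2 * a ^ 2 + 2 * a + 1 ∧ ∀ b : Ω, b ≠ c.a →
      Nat.card (orbit (stabilizer G c.a) b) = a * (2 * a + 1) ∨
      Nat.card (orbit (stabilizer G c.a) b) = (a + 1) * (2 * a + 1) := by
  have := c.prim.toIsPretransitive
  obtain ⟨d, hda, hd, -⟩ := Cfsg.Agent.S0719.exists_third c.a hrank c.b c.b_ne_a
  obtain ⟨χ₁, χ₂, h₁, h₂, hπ⟩ := rank3_decomp (G := G) c.a hrank
  rcases c.degrees hp2 χ₁ χ₂ h₁ h₂ hπ hda hd with ⟨e1, e2⟩ | ⟨e1, e2⟩
  · exact Cfsg.Agent.S0719.result c.prim c.card_eq c.a hrank χ₁ χ₂ h₁ h₂ hπ e1 e2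
  · refine Cfsg.Agent.S0719.result c.prim c.card_eq c.a hrank χ₂ χ₁ h₂ h₁ ?_ e1 e2
    rw [hπ]
    ext g
    ring

end Cfg

end Cfsg.Agent.Lib.Helper58.TwoP
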